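import Cfsg.Agent.Lib.SuzukiTrans.Setup
import Mathlib.GroupTheory.Commutator.Basic

/-!
2-groups with a group transitive on the involutions: an invariant abelian normal subgroup has
exponent at most four.
-/

set_option autoImplicit false

namespace CfsgLib.SuzukiTrans

open scoped commutatorElement
open CfsgLib.SuzukiTwo (exists_involution_pow)

universe u

variable {P : Type u} [Group P] {F : Type*} [Field F] [Fintype F] [CharP F 2]
variable {K : Subgroup (MulAut P)} {η : F → P} {n d : ℕ}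

/-- The coordinate of an element with trivial square. -/
noncomputable def lg (η : F → P) : P → F := Function.invFun η

omit [Fintype F] [CharP F 2] in
theorem IsCoord.lg_eta (hC : IsCoord K η n d) (v : F) : lg η (η v) = v :=
  Function.leftInverse_invFun hC.inj v

omit [Fintype F] [CharP F 2] in
theorem IsCoord.eta_lg (hC : IsCoord K η n d) {x : P} (hx : x * x = 1) : η (lg η x) = x :=
  Function.invFun_eq (hC.mem_range x hx)

omit [Fintype F] [CharP F 2] in
theorem IsCoord.eta_zero (hC : IsCoord K η n d) : η 0 = 1 := by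
  have h := hC.map_add 0 0
  rw [add_zero] at h
  exact left_eq_mul.1 h

omit [Fintype F] [CharP F 2] in
theorem IsCoord.lg_one (hC : IsCoord K η n d) : lg η (1 : P) = 0 := by
  rw [← hC.eta_zero, hC.lg_eta]

omit [Fintype F] [CharP F 2] in
theorem IsCoord.lg_mul (hC : IsCoord K η n d) {x y : P} (hx : x * x = 1) (hy : y * y = 1) :
    lg η (x * y) = lg η x + lg η y := by
  conv_lhs => rw [← hC.eta_lg hx, ← hC.eta_lg hy, ← hC.map_add]
  rw [hC.lg_eta]

omit [Fintype F] [CharP F 2] in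
theorem IsCoord.eq_one_of_lg (hC : IsCoord K η n d) {x : P} (hx : x * x = 1) (h : lg η x = 0) :
    x = 1 := by
  rw [← hC.eta_lg hx, h, hC.eta_zero]

/-- The action of an automorphism on the coordinates. -/
noncomputable def sl (η : F → P) (k : MulAut P) (v : F) : F := lg η (k (η v))

omit [Fintype F] [CharP F 2] in
theorem IsCoord.equiv (hC : IsCoord K η n d) (k : MulAut P) (v : F) : k (η v) = η (sl η k v) :=
  (hC.eta_lg (IsTrans.map_invol (hC.sq v))).symm

omit [Fintype F] [CharP F 2] in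
theorem IsCoord.lg_map (hC : IsCoord K η n d) (k : MulAut P) {x : P} (hx : x * x = 1) :
    lg η (k x) = sl η k (lg η x) := by
  conv_lhs => rw [← hC.eta_lg hx, hC.equiv]
  rw [hC.lg_eta]

omit [Fintype F] [CharP F 2] in
theorem IsCoord.sl_add (hC : IsCoord K η n d) (k : MulAut P) (v w : F) :
    sl η k (v + w) = sl η k v + sl η k w := by
  refine hC.inj ?_
  rw [← hC.equiv, hC.map_add, map_mul, hC.equiv, hC.equiv, hC.map_add]

omit [Fintype F] [CharP F 2] in
theorem IsCoord.sl_zero (hC : IsCoord K η n d) (k : MulAut P) : sl η k 0 = 0 := by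
  refine hC.inj ?_
  rw [← hC.equiv, hC.eta_zero, map_one]

omit [Fintype F] [CharP F 2] in
theorem IsCoord.sl_symm (hC : IsCoord K η n d) (k : MulAut P) (v : F) :
    sl η k (sl η k.symm v) = v := by
  refine hC.inj ?_
  rw [← hC.equiv, ← hC.equiv, MulEquiv.apply_symm_apply]

omit [Fintype F] [CharP F 2] in
theorem IsCoord.eta_ne_one (hC : IsCoord K η n d) {v : F} (hv : v ≠ 0) : η v ≠ 1 :=
  fun h => hv (hC.inj (h.trans hC.eta_zero.symm))

omit [Fintype F] [CharP F 2] in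
theorem IsCoord.sl_trans (hT : IsTrans K) (hC : IsCoord K η n d) {v w : F} (hv : v ≠ 0)
    (hw : w ≠ 0) : ∃ k : K, sl η k v = w := by
  obtain ⟨k, hk⟩ := hT.trans _ _ (hC.eta_ne_one hv) (hC.sq v) (hC.eta_ne_one hw) (hC.sq w)
  exact ⟨k, hC.inj (by rw [← hC.equiv, hk])⟩

omit [Fintype F] [CharP F 2] in
theorem IsCoord.sl_scal (hC : IsCoord K η n d) {c : F} (hc : c ≠ 0) :
    ∃ k : K, ∀ v, sl η k v = c ^ d * v := by
  obtain ⟨k, hk⟩ := hC.scal c hc
  exact ⟨k, fun v => hC.inj (by rw [← hC.equiv, hk])⟩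

omit [Fintype F] [CharP F 2] in
/-- An invariant set of values containing zero and another value is everything. -/
theorem IsCoord.surjective_of_equivariant (hC : IsCoord K η n d) (hT : IsTrans K) {α : Type*}
    (φ : α → F) (hequiv : ∀ (k : K) a, ∃ b, φ b = sl η k (φ a)) (h0 : ∃ a, φ a = 0)
    (hne : ∃ a, φ a ≠ 0) : Function.Surjective φ := by
  intro v
  by_cases hv : v = 0
  · obtain ⟨a, ha⟩ := h0
    exact ⟨a, by rw [ha, hv]⟩
  · obtain ⟨a, ha⟩ := hne
    obtain ⟨k, hk⟩ := hC.sl_trans hT ha hv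
    obtain ⟨b, hb⟩ := hequiv k a
    exact ⟨b, hb.trans hk⟩

omit [CharP F 2] in
theorem IsTrans.exists_odd_element (hT : IsTrans K) (hC : IsCoord K η n d) :
    ∃ (k : K) (p e : ℕ), p.Prime ∧ p ≠ 2 ∧ orderOf k = p ^ e ∧
      ∀ x : P, x ≠ 1 → (k : MulAut P) x ≠ x := by
  have := hT.finite
  obtain ⟨g, hg, -⟩ := exists_gen hC.card
  set c : F := (g : F) ^ d with hc
  obtain ⟨k, hk⟩ := hC.scal (g : F) g.ne_zero
  have hpow : ∀ (i : ℕ) v, ((k ^ i : K) : MulAut P) (η v) = η (c ^ i * v) := by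
    intro i
    induction i with
    | zero => intro v; simp
    | succ i ih =>
      intro v
      rw [pow_succ', Subgroup.coe_mul, MulAut.mul_apply, ih, hk, ← hc, pow_succ', mul_assoc]
  have hc1 : c ≠ 1 := by
    intro h
    rw [hc, ← pow_zero (g : F)] at h
    have h2 := hC.param.two_le
    have h3 := (modEq_of_pow_eq hg h).eq_of_lt_of_lt hC.param.lt (by
      have := Nat.pow_le_pow_right (show 1 ≤ 2 by norm_num) h2
      omega)
    have := hC.param.odd.pos
    omega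
  have hcN : c ^ orderOf k = 1 := by
    have := hpow (orderOf k) 1
    rw [pow_orderOf_eq_one, mul_one] at this
    exact (hC.inj (by simpa using this)).symm
  have hne : orderOf c ≠ 1 := fun h => hc1 (orderOf_eq_one_iff.1 h)
  obtain ⟨p, hp, hpd⟩ := Nat.exists_prime_and_dvd hne
  have hp2 : p ≠ 2 := by
    rintro rfl
    have h1 : orderOf c ∣ 2 ^ n - 1 := orderOf_dvd_of_pow_eq_one (by
      rw [← hC.card, Nat.card_eq_fintype_card]
      exact FiniteField.pow_card_sub_one_eq_one _ (pow_ne_zero _ g.ne_zero))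
    have h2 : Even (2 ^ n) := Nat.even_pow.2 ⟨even_two, by have := hC.param.two_le; omega⟩
    have h3 := hpd.trans h1
    have := Nat.one_le_two_pow (n := n)
    rw [Nat.even_iff] at h2
    omega
  obtain ⟨e, s, hps, hN⟩ := Nat.exists_eq_pow_mul_and_not_dvd (orderOf_pos k).ne' p hp.ne_one
  refine ⟨k ^ s, p, e, hp, hp2, ?_, fun x hx hfix => hps ?_⟩
  · rw [orderOf_pow_of_dvd (by rintro rfl; exact hps (dvd_zero p))
      ⟨p ^ e, by rw [hN, mul_comm]⟩, hN]
    exact Nat.mul_div_cancel _ (Nat.pos_of_ne_zero (by rintro rfl; exact hps (dvd_zero p)))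
  · obtain ⟨m, hm⟩ := hT.isPGroup x
    obtain ⟨i, -, hi1, hi2⟩ := exists_involution_pow hx hm
    refine hpd.trans (orderOf_dvd_of_pow_eq_one ?_)
    obtain ⟨v, hv⟩ := hC.mem_range _ hi2
    have hv0 : v ≠ 0 := fun h => hi1 (by rw [← hv, h, hC.eta_zero])
    have h1 : ((k ^ s : K) : MulAut P) (η v) = η v := by rw [hv, map_pow, hfix]
    rw [hpow] at h1
    exact (mul_eq_right₀ hv0).1 (hC.inj h1)

omit [Fintype F] [CharP F 2] in
/-- The involutions lie in every non-trivial invariant subgroup. -/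
theorem IsTrans.involution_mem (hT : IsTrans K) {A : Subgroup P}
    (hinv : ∀ (k : K), ∀ a ∈ A, (k : MulAut P) a ∈ A) (hA : A ≠ ⊥) {x : P} (hx : x * x = 1) :
    x ∈ A := by
  by_cases hx1 : x = 1
  · rw [hx1]; exact A.one_mem
  obtain ⟨a, ha, ha1⟩ := (Subgroup.bot_or_exists_ne_one A).resolve_left hA
  obtain ⟨m, hm⟩ := hT.isPGroup a
  obtain ⟨i, -, hi1, hi2⟩ := exists_involution_pow ha1 hm
  obtain ⟨k, hk⟩ := hT.trans _ _ hi1 hi2 hx1 hx
  exact hk ▸ hinv k _ (A.pow_mem ha _)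

/-- An abelian normal subgroup, invariant under the group, of exponent exactly `2 ^ f`. -/
structure IsGood (K : Subgroup (MulAut P)) (A : Subgroup P) (f : ℕ) : Prop where
  normal : A.Normal
  comm : ∀ a ∈ A, ∀ b ∈ A, a * b = b * a
  inv : ∀ (k : K), ∀ a ∈ A, (k : MulAut P) a ∈ A
  exp : ∀ a ∈ A, a ^ 2 ^ f = 1
  top : 1 ≤ f ∧ ∃ a ∈ A, a ^ 2 ^ (f - 1) ≠ 1

/-- The `2 ^ i`-th powers of elements of `A`. -/
def lev (A : Subgroup P) (i : ℕ) (x : P) : Prop := ∃ b ∈ A, b ^ 2 ^ i = x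

variable {A : Subgroup P} {f : ℕ}

omit [Fintype F] [CharP F 2] in
theorem IsGood.mul_pow (hA : IsGood K A f) {a b : P} (ha : a ∈ A) (hb : b ∈ A) (n : ℕ) :
    (a * b) ^ n = a ^ n * b ^ n := (show Commute a b from hA.comm a ha b hb).mul_pow n

omit [Fintype F] [CharP F 2] in
theorem IsGood.ne_bot (hA : IsGood K A f) : A ≠ ⊥ := by
  obtain ⟨a, ha, hne⟩ := hA.top.2
  intro h
  rw [h, Subgroup.mem_bot] at ha
  exact hne (by rw [ha, one_pow])

omit [Fintype F] [CharP F 2] in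
theorem IsGood.root (hA : IsGood K A f) (hT : IsTrans K) {x : P} (hx : x * x = 1) {i : ℕ}
    (hi : i < f) : lev A i x := by
  obtain ⟨hf, a, ha, hne⟩ := hA.top
  by_cases hx1 : x = 1
  · exact ⟨1, A.one_mem, by rw [one_pow, hx1]⟩
  have hsq : a ^ 2 ^ (f - 1) * a ^ 2 ^ (f - 1) = 1 := by
    rw [← pow_add, ← two_mul, ← pow_succ', Nat.sub_add_cancel hf, hA.exp a ha]
  obtain ⟨k, hk⟩ := hT.trans _ _ hne hsq hx1 hx
  refine ⟨(k : MulAut P) a ^ 2 ^ (f - 1 - i), A.pow_mem (hA.inv k a ha) _, ?_⟩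
  rw [← pow_mul, ← pow_add, show f - 1 - i + i = f - 1 by omega, ← map_pow, hk]

omit [Fintype F] [CharP F 2] in
theorem IsGood.lev_one (hA : IsGood K A f) (hT : IsTrans K) {a : P} (ha : a ∈ A)
    (h : a ^ 2 ^ (f - 1) = 1) : lev A 1 a := by
  suffices H : ∀ j < f, ∀ a ∈ A, a ^ 2 ^ j = 1 → lev A 1 a from
    H (f - 1) (by have := hA.top.1; omega) a ha h
  intro j
  induction j with
  | zero => intro _ a _ h; exact ⟨1, A.one_mem, by rw [one_pow]; simpa using h.symm⟩
  | succ j ih =>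
    intro hj a ha h
    have hsq : a ^ 2 ^ j * a ^ 2 ^ j = 1 := by rw [← pow_add, ← two_mul, ← pow_succ']; exact h
    obtain ⟨c, hc, hce⟩ := hA.root hT hsq hj
    have hc2 : c ^ 2 ∈ A := A.pow_mem hc 2
    obtain ⟨b, hb, hbe⟩ := ih (by omega) (a * (c ^ 2)⁻¹) (A.mul_mem ha (A.inv_mem hc2))
      (by rw [hA.mul_pow ha (A.inv_mem hc2), inv_pow, ← pow_mul, ← pow_succ', hce,
        mul_inv_cancel])
    refine ⟨b * c, A.mul_mem hb hc, ?_⟩
    rw [hA.mul_pow hb hc, hbe, pow_one, inv_mul_cancel_right]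

omit [Fintype F] [CharP F 2] in
theorem lev_mem {i : ℕ} {x : P} (h : lev A i x) : x ∈ A := by
  obtain ⟨b, hb, rfl⟩ := h
  exact A.pow_mem hb _

omit [Fintype F] [CharP F 2] in
theorem IsGood.lev_pow_eq_one (hA : IsGood K A f) {i j : ℕ} {x : P} (h : lev A i x)
    (hij : f ≤ i + j) : x ^ 2 ^ j = 1 := by
  obtain ⟨b, hb, rfl⟩ := h
  rw [← pow_mul, ← pow_add]
  obtain ⟨d, hd⟩ := Nat.exists_eq_add_of_le hij
  rw [hd, pow_add, pow_mul, hA.exp b hb, one_pow]

omit [Fintype F] [CharP F 2] in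
theorem IsGood.lev_mul (hA : IsGood K A f) {i : ℕ} {x y : P} (hx : lev A i x) (hy : lev A i y) :
    lev A i (x * y) := by
  obtain ⟨a, ha, rfl⟩ := hx
  obtain ⟨b, hb, rfl⟩ := hy
  exact ⟨a * b, A.mul_mem ha hb, hA.mul_pow ha hb _⟩

omit [Fintype F] [CharP F 2] in
theorem lev_inv {i : ℕ} {x : P} (hx : lev A i x) : lev A i x⁻¹ := by
  obtain ⟨a, ha, rfl⟩ := hx
  exact ⟨a⁻¹, A.inv_mem ha, inv_pow a _⟩

omit [Fintype F] [CharP F 2] in
theorem lev_mono {i j : ℕ} (h : i ≤ j) {x : P} (hx : lev A j x) : lev A i x := by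
  obtain ⟨a, ha, rfl⟩ := hx
  obtain ⟨d, rfl⟩ := Nat.exists_eq_add_of_le h
  exact ⟨a ^ 2 ^ d, A.pow_mem ha _, by rw [← pow_mul, ← pow_add, add_comm d i]⟩

omit [Fintype F] [CharP F 2] in
theorem IsGood.commutator_mem (hA : IsGood K A f) (y : P) {a : P} (ha : a ∈ A) : ⁅y, a⁆ ∈ A := by
  rw [commutatorElement_def]
  exact A.mul_mem (hA.normal.conj_mem a ha y) (A.inv_mem ha)

omit [Fintype F] [CharP F 2] in
theorem IsGood.commutator_mul (hA : IsGood K A f) (y : P) {a b : P} (ha : a ∈ A) (hb : b ∈ A) :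
    ⁅y, a * b⁆ = ⁅y, a⁆ * ⁅y, b⁆ := by
  have h := hA.comm a ha _ (hA.commutator_mem y hb)
  calc ⁅y, a * b⁆ = ⁅y, a⁆ * (a * ⁅y, b⁆ * a⁻¹) := by simp only [commutatorElement_def]; group
    _ = ⁅y, a⁆ * ⁅y, b⁆ := by rw [h, mul_inv_cancel_right]

omit [Fintype F] [CharP F 2] in
theorem IsGood.commutator_pow (hA : IsGood K A f) (y : P) {a : P} (ha : a ∈ A) (n : ℕ) :
    ⁅y, a ^ n⁆ = ⁅y, a⁆ ^ n := by
  induction n with
  | zero => simp
  | succ n ih => rw [pow_succ, hA.commutator_mul y (A.pow_mem ha n) ha, ih, ← pow_succ]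

omit [Fintype F] [CharP F 2] in
theorem IsGood.commutator_left (_hA : IsGood K A f) (y z : P) {a : P} (_ha : a ∈ A) :
    ⁅y * z, a⁆ = ⁅y, ⁅z, a⁆⁆ * ⁅z, a⁆ * ⁅y, a⁆ := by
  simp only [commutatorElement_def]
  group

omit [Fintype F] [CharP F 2] in
theorem map_commutator' (k : MulAut P) (x y : P) : k ⁅x, y⁆ = ⁅k x, k y⁆ := by
  simp [commutatorElement_def]

omit [Fintype F] [CharP F 2] in
theorem IsTrans.commutator_invol (hT : IsTrans K) (y : P) {x : P} (hx : x * x = 1) :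
    ⁅y, x⁆ = 1 := by
  rw [commutatorElement_eq_one_iff_mul_comm]
  exact Subgroup.mem_center_iff.1 (hT.involution_central hx) y

/-- The elements `y` with `⁅p, y⁆ ∈ A` for all `p` and `y * y ∈ A`. -/
def layer (A : Subgroup P) [hA : A.Normal] : Subgroup P :=
  Subgroup.comap (QuotientGroup.mk' A)
    { carrier := {z | z * z = 1 ∧ z ∈ Subgroup.center (P ⧸ A)}
      one_mem' := ⟨one_mul 1, Subgroup.one_mem _⟩
      mul_mem' := fun {x y} hx hy => ⟨by
        have hc := Subgroup.mem_center_iff.1 hx.2 y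
        calc x * y * (x * y) = x * (y * x) * y := by group
          _ = (x * x) * (y * y) := by rw [hc]; group
          _ = 1 := by rw [hx.1, hy.1, one_mul], Subgroup.mul_mem _ hx.2 hy.2⟩
      inv_mem' := fun {x} hx => ⟨by rw [← mul_inv_rev, hx.1, inv_one],
        Subgroup.inv_mem _ hx.2⟩ }

omit [Fintype F] [CharP F 2] in
theorem mem_layer {A : Subgroup P} [hA : A.Normal] {y : P} :
    y ∈ layer A ↔ y * y ∈ A ∧ ∀ p : P, ⁅p, y⁆ ∈ A := by
  show (QuotientGroup.mk' A y * QuotientGroup.mk' A y = 1 ∧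
    QuotientGroup.mk' A y ∈ Subgroup.center (P ⧸ A)) ↔ _
  constructor
  · rintro ⟨h1, h2⟩
    refine ⟨(QuotientGroup.eq_one_iff _).1 h1, fun p => (QuotientGroup.eq_one_iff _).1 ?_⟩
    show QuotientGroup.mk' A ⁅p, y⁆ = 1
    rw [map_commutatorElement, commutatorElement_eq_one_iff_mul_comm]
    exact Subgroup.mem_center_iff.1 h2 _
  · rintro ⟨h1, h2⟩
    refine ⟨(QuotientGroup.eq_one_iff _).2 h1, Subgroup.mem_center_iff.2 fun z => ?_⟩
    obtain ⟨p, rfl⟩ := QuotientGroup.mk'_surjective A z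
    rw [← commutatorElement_eq_one_iff_mul_comm, ← map_commutatorElement]
    exact (QuotientGroup.eq_one_iff _).2 (h2 p)

omit [Fintype F] [CharP F 2] in
theorem map_mem_layer {A : Subgroup P} [A.Normal]
    (hinv : ∀ (k : K), ∀ a ∈ A, (k : MulAut P) a ∈ A) (k : K) {y : P} (hy : y ∈ layer A) :
    (k : MulAut P) y ∈ layer A := by
  obtain ⟨h1, h2⟩ := mem_layer.1 hy
  refine mem_layer.2 ⟨by rw [← map_mul]; exact hinv k _ h1, fun p => ?_⟩
  have := hinv k _ (h2 ((k : MulAut P).symm p))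
  rwa [map_commutator', MulEquiv.apply_symm_apply] at this

omit [Fintype F] [CharP F 2] in
/-- Below a proper subgroup there is a non-trivial central layer. -/
theorem exists_mem_layer (hT : IsTrans K) {A C : Subgroup P} [A.Normal] [C.Normal] (hAC : A ≤ C)
    (hne : A ≠ C) : ∃ y ∈ layer A, y ∈ C ∧ y ∉ A := by
  have := hT.finite
  have := (hT.isPGroup.to_quotient A).isNilpotent
  have hbar : (C.map (QuotientGroup.mk' A)) ≠ ⊥ := by
    rw [Ne, Subgroup.map_eq_bot_iff, QuotientGroup.ker_mk']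
    exact fun h => hne (le_antisymm hAC h)
  have : (C.map (QuotientGroup.mk' A)).Normal :=
    Subgroup.Normal.map ‹C.Normal› _ (QuotientGroup.mk'_surjective A)
  obtain ⟨z, ⟨hzC, hzZ⟩, hz1⟩ := (Subgroup.bot_or_exists_ne_one _).resolve_left
    (CfsgLib.PSolvable.inf_center_ne_bot hbar)
  obtain ⟨m, hm⟩ := hT.isPGroup.to_quotient A z
  obtain ⟨i, -, hi1, hi2⟩ := exists_involution_pow hz1 hm
  obtain ⟨y, hy, hye⟩ := Subgroup.mem_map.1 (Subgroup.pow_mem _ hzC (2 ^ i))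
  refine ⟨y, ⟨by rw [hye]; exact hi2, by rw [hye]; exact Subgroup.pow_mem _ hzZ _⟩, hy,
    fun h => hi1 ?_⟩
  rw [← hye]
  exact (QuotientGroup.eq_one_iff _).2 h

omit [Fintype F] [CharP F 2] in
/-- The exponent of an invariant abelian normal subgroup. -/
theorem exists_isGood (hT : IsTrans K) {A : Subgroup P} (hn : A.Normal)
    (hc : ∀ a ∈ A, ∀ b ∈ A, a * b = b * a) (hinv : ∀ (k : K), ∀ a ∈ A, (k : MulAut P) a ∈ A)
    (hne : A ≠ ⊥) : ∃ f, IsGood K A f := by
  classical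
  have := hT.finite
  have hex : ∃ f, ∀ a ∈ A, a ^ 2 ^ f = 1 := by
    obtain ⟨m, hm⟩ := IsPGroup.iff_card.1 hT.isPGroup
    exact ⟨m, fun a _ => by rw [← hm]; exact pow_card_eq_one'⟩
  set f := Nat.find hex with hf
  have h1 : 1 ≤ f := by
    by_contra hcon
    have h0 : f = 0 := by omega
    obtain ⟨a, ha, ha1⟩ := (Subgroup.bot_or_exists_ne_one A).resolve_left hne
    have h := Nat.find_spec hex a ha
    rw [← hf, h0, pow_zero, pow_one] at h
    exact ha1 h
  refine ⟨f, hn, hc, hinv, Nat.find_spec hex, h1, ?_⟩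
  by_contra hcon
  push Not at hcon
  exact Nat.find_min hex (show f - 1 < f by omega) hcon

/-- The central layer over `A` inside the centraliser of `A` is abelian, and squaring detects
its part outside `A`. -/
theorem layer_inf_centralizer (hT : IsTrans K) (hC : IsCoord K η n d) (hA : IsGood K A f)
    (hf : 2 ≤ f) [A.Normal] :
    (layer A ⊓ Subgroup.centralizer (A : Set P)).Normal ∧
    (∀ a ∈ layer A ⊓ Subgroup.centralizer (A : Set P),
      ∀ b ∈ layer A ⊓ Subgroup.centralizer (A : Set P), a * b = b * a) ∧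
    (∀ (k : K), ∀ a ∈ layer A ⊓ Subgroup.centralizer (A : Set P),
      (k : MulAut P) a ∈ layer A ⊓ Subgroup.centralizer (A : Set P)) ∧
    ∀ x ∈ layer A ⊓ Subgroup.centralizer (A : Set P), (x * x) ^ 2 ^ (f - 1) = 1 → x ∈ A := by
  set N := layer A ⊓ Subgroup.centralizer (A : Set P) with hN
  have hcomm : ∀ x ∈ N, ∀ a ∈ A, x * a = a * x := fun x hx a ha =>
    (Subgroup.mem_centralizer_iff.1 hx.2 a ha).symm
  have hcA : ∀ x ∈ N, ∀ y ∈ N, ⁅x, y⁆ ∈ A := fun x _ y hy => (mem_layer.1 hy.1).2 x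
  have hc2 : ∀ x ∈ N, ∀ y ∈ N, ⁅x, y⁆ * ⁅x, y⁆ = 1 := by
    intro x hx y hy
    have e : ⁅x * x, y⁆ = 1 := commutatorElement_eq_one_iff_mul_comm.2
      (hcomm y hy _ (mem_layer.1 hx.1).1).symm
    calc ⁅x, y⁆ * ⁅x, y⁆ = x * ⁅x, y⁆ * x⁻¹ * ⁅x, y⁆ := by
          rw [hcomm x hx _ (hcA x hx y hy), mul_inv_cancel_right]
      _ = ⁅x * x, y⁆ := by simp only [commutatorElement_def]; group
      _ = 1 := e
  let φ : P → F := fun x => lg η ((x * x) ^ 2 ^ (f - 1))
  have hinvol : ∀ x ∈ N, (x * x) ^ 2 ^ (f - 1) * (x * x) ^ 2 ^ (f - 1) = 1 := fun x hx => by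
    rw [← pow_add, ← two_mul, ← pow_succ', Nat.sub_add_cancel hA.top.1,
      hA.exp _ (mem_layer.1 hx.1).1]
  have hφmul : ∀ x ∈ N, ∀ y ∈ N, φ (x * y) = φ x + φ y := by
    intro x hx y hy
    have hxx := (mem_layer.1 hx.1).1
    have hyy := (mem_layer.1 hy.1).1
    have hy' : y⁻¹ ∈ N := N.inv_mem hy
    have hc : y * x * y⁻¹ * x⁻¹ ∈ A := by simpa [commutatorElement_def] using hcA y hy x hx
    have e : x * y * (x * y) = x * (y * x * y⁻¹ * x⁻¹) * x * (y * y) := by group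
    have e2 : x * (y * x * y⁻¹ * x⁻¹) * x = (x * x) * (y * x * y⁻¹ * x⁻¹) := by
      rw [mul_assoc x (y * x * y⁻¹ * x⁻¹) x, ← hcomm x hx _ hc, ← mul_assoc x x]
    have hc1 : (y * x * y⁻¹ * x⁻¹) ^ 2 ^ (f - 1) = 1 := by
      obtain ⟨d, hd⟩ := Nat.exists_eq_add_of_le (show 1 ≤ f - 1 by omega)
      have h2 : (y * x * y⁻¹ * x⁻¹) ^ 2 = 1 := by
        rw [pow_two]
        simpa [commutatorElement_def] using hc2 y hy x hx
      rw [hd, pow_add, pow_one, pow_mul, h2, one_pow]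
    show lg η _ = lg η _ + lg η _
    rw [e, e2, hA.mul_pow (A.mul_mem hxx hc) hyy, hA.mul_pow hxx hc, hc1, mul_one,
      hC.lg_mul (hinvol x hx) (hinvol y hy)]
  have hφ0 : ∀ a ∈ A, φ a = 0 := by
    intro a ha
    have h2 : (a * a) ^ 2 ^ (f - 1) = 1 := by
      rw [hA.mul_pow ha ha, ← pow_add, ← two_mul, ← pow_succ', Nat.sub_add_cancel hA.top.1,
        hA.exp a ha]
    show lg η _ = 0
    rw [h2, hC.lg_one]
  have hker : ∀ x ∈ N, φ x = 0 → x ∈ A := by
    intro x hx h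
    obtain ⟨b, hb, hbe⟩ := hA.lev_one hT (mem_layer.1 hx.1).1 (hC.eq_one_of_lg (hinvol x hx) h)
    have e : (x * b⁻¹) * (x * b⁻¹) = 1 := by
      have hc := hcomm x hx _ (A.inv_mem hb)
      calc x * b⁻¹ * (x * b⁻¹) = x * (b⁻¹ * x) * b⁻¹ := by group
        _ = (x * x) * (b ^ 2)⁻¹ := by rw [← hc, pow_two]; group
        _ = 1 := by rw [← hbe, pow_one, mul_inv_cancel]
    have := A.mul_mem (hT.involution_mem hA.inv hA.ne_bot e) hb
    rwa [inv_mul_cancel_right] at this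
  have hNinv : ∀ (k : K), ∀ x ∈ N, (k : MulAut P) x ∈ N := by
    intro k x hx
    refine ⟨map_mem_layer hA.inv k hx.1, Subgroup.mem_centralizer_iff.2 fun a ha => ?_⟩
    have ha' : (k : MulAut P).symm a ∈ A := by
      have := hA.inv k⁻¹ a ha
      simpa using this
    have := congrArg (k : MulAut P) (hcomm x hx _ ha')
    simp only [map_mul, MulEquiv.apply_symm_apply] at this
    exact this.symm
  have hφk : ∀ (k : K), ∀ x ∈ N, φ ((k : MulAut P) x) = sl η k (φ x) := by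
    intro k x hx
    show lg η _ = _
    rw [← map_mul, ← map_pow, hC.lg_map k (hinvol x hx)]
  refine ⟨⟨fun n hn g => ⟨?_, Subgroup.Normal.conj_mem inferInstance n hn.2 g⟩⟩, ?_, hNinv,
    fun x hx h => hker x hx (by show lg η _ = 0; rw [h, hC.lg_one])⟩
  · obtain ⟨h1, h2⟩ := mem_layer.1 hn.1
    refine mem_layer.2 ⟨?_, fun p => ?_⟩
    · have := Subgroup.Normal.conj_mem ‹A.Normal› _ h1 g
      simpa [mul_assoc] using this
    · have := Subgroup.Normal.conj_mem ‹A.Normal› _ (h2 (g⁻¹ * p * g)) g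
      simpa [commutatorElement_def, mul_assoc] using this
  by_cases hex : ∀ x ∈ N, x ∈ A
  · exact fun a ha b hb => hA.comm a (hex a ha) b (hex b hb)
  push Not at hex
  obtain ⟨y₀, hy₀, hy₀A⟩ := hex
  have hsurj : Function.Surjective (fun x : N => φ x) := by
    refine hC.surjective_of_equivariant hT _ (fun k x => ?_) ⟨1, hφ0 1 A.one_mem⟩
      ⟨⟨y₀, hy₀⟩, fun h => hy₀A (hker y₀ hy₀ h)⟩
    exact ⟨⟨_, hNinv k x x.2⟩, hφk k x x.2⟩
  choose sec hsec using hsurj
  have hφinv : ∀ x ∈ N, φ x⁻¹ = φ x := by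
    intro x hx
    have := hφmul x hx x⁻¹ (N.inv_mem hx)
    rw [mul_inv_cancel, hφ0 1 A.one_mem] at this
    exact (CharTwo.add_eq_zero.1 this.symm).symm
  -- the commutator depends only on the classes
  have hwd : ∀ x ∈ N, ∀ x' ∈ N, ∀ y ∈ N, φ x = φ x' → ⁅x, y⁆ = ⁅x', y⁆ := by
    intro x hx x' hx' y hy h
    have ha : x'⁻¹ * x ∈ A := hker _ (N.mul_mem (N.inv_mem hx') hx) (by
      rw [hφmul _ (N.inv_mem hx') x hx, hφinv x' hx', h, CharTwo.add_self_eq_zero])
    have hc := hcomm y hy _ ha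
    have hcy : ⁅x'⁻¹ * x, y⁆ = 1 := commutatorElement_eq_one_iff_mul_comm.2 hc.symm
    calc ⁅x, y⁆ = ⁅x' * (x'⁻¹ * x), y⁆ := by rw [mul_inv_cancel_left]
      _ = x' * ⁅x'⁻¹ * x, y⁆ * x'⁻¹ * ⁅x', y⁆ := by simp only [commutatorElement_def]; group
      _ = ⁅x', y⁆ := by rw [hcy]; group
  have hwd2 : ∀ x ∈ N, ∀ y ∈ N, ∀ y' ∈ N, φ y = φ y' → ⁅x, y⁆ = ⁅x, y'⁆ := by
    intro x hx y hy y' hy' h
    rw [← inv_inj, commutatorElement_inv, commutatorElement_inv]
    exact hwd y hy y' hy' x hx h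
  let β : F → F → F := fun v w => lg η ⁅(sec v : P), (sec w : P)⁆
  have hβ : ∀ x ∈ N, ∀ y ∈ N, β (φ x) (φ y) = lg η ⁅x, y⁆ := by
    intro x hx y hy
    show lg η _ = _
    rw [hwd _ (sec (φ x)).2 x hx _ (sec (φ y)).2 (hsec _),
      hwd2 x hx _ (sec (φ y)).2 y hy (hsec _)]
  have hbl : ∀ x ∈ N, ∀ x' ∈ N, ∀ y ∈ N,
      lg η ⁅x * x', y⁆ = lg η ⁅x, y⁆ + lg η ⁅x', y⁆ := by
    intro x hx x' hx' y hy
    have e : ⁅x * x', y⁆ = ⁅x', y⁆ * ⁅x, y⁆ := by
      calc ⁅x * x', y⁆ = x * ⁅x', y⁆ * x⁻¹ * ⁅x, y⁆ := by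
            simp only [commutatorElement_def]; group
        _ = _ := by rw [hcomm x hx _ (hcA x' hx' y hy), mul_inv_cancel_right]
    rw [e, hC.lg_mul (hc2 x' hx' y hy) (hc2 x hx y hy), add_comm]
  have hzero := alternating_eq_zero hC.param hC.card β
    (fun u v w => by
      rw [← hsec u, ← hsec v, ← hsec w, ← hφmul _ (sec u).2 _ (sec v).2,
        hβ _ (N.mul_mem (sec u).2 (sec v).2) _ (sec w).2, hβ _ (sec u).2 _ (sec w).2,
        hβ _ (sec v).2 _ (sec w).2]
      exact hbl _ (sec u).2 _ (sec v).2 _ (sec w).2)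
    (fun w u v => by
      rw [← hsec u, ← hsec v, ← hsec w, ← hφmul _ (sec u).2 _ (sec v).2,
        hβ _ (sec w).2 _ (N.mul_mem (sec u).2 (sec v).2), hβ _ (sec w).2 _ (sec u).2,
        hβ _ (sec w).2 _ (sec v).2]
      have h1 := hbl _ (sec u).2 _ (sec v).2 _ (sec w).2
      have hflip : ∀ x ∈ N, ∀ y ∈ N, lg η ⁅x, y⁆ = lg η ⁅y, x⁆ := fun x hx y hy => by
        rw [← commutatorElement_inv x y, inv_eq_of_mul_eq_one_right (hc2 x hx y hy)]
      rw [hflip _ (sec w).2 _ (N.mul_mem (sec u).2 (sec v).2), h1, hflip _ (sec u).2 _ (sec w).2,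
        hflip _ (sec v).2 _ (sec w).2])
    (fun c hc u v => by
      obtain ⟨k, hk⟩ := hC.sl_scal hc
      rw [← hk u, ← hk v, ← hk (β u v)]
      rw [← hsec u, ← hsec v, ← hφk k _ (sec u).2, ← hφk k _ (sec v).2,
        hβ _ (hNinv k _ (sec u).2) _ (hNinv k _ (sec v).2), hβ _ (sec u).2 _ (sec v).2,
        ← map_commutator', hC.lg_map k (hc2 _ (sec u).2 _ (sec v).2)])
    (fun u => by
      show lg η _ = 0
      rw [commutatorElement_self, hC.lg_one])
  exact fun a ha b hb =>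
    commutatorElement_eq_one_iff_mul_comm.1 (hC.eq_one_of_lg (hc2 a ha b hb)
      (by rw [← hβ a ha b hb]; exact hzero _ _))

/-- An invariant abelian normal subgroup of exponent at least four, maximal with these properties,
is self-centralising. -/
theorem centralizer_le_of_maximal (hT : IsTrans K) (hC : IsCoord K η n d) (hA : IsGood K A f)
    (hf : 2 ≤ f)
    (hmax : ∀ B : Subgroup P, A ≤ B → B.Normal → (∀ a ∈ B, ∀ b ∈ B, a * b = b * a) →
      (∀ (k : K), ∀ a ∈ B, (k : MulAut P) a ∈ B) → B = A) :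
    Subgroup.centralizer (A : Set P) ≤ A := by
  have := hA.normal
  by_contra hne
  have hAC : A ≤ Subgroup.centralizer (A : Set P) := fun a ha => Subgroup.mem_centralizer_iff.2
    fun b hb => hA.comm b hb a ha
  obtain ⟨y₀, hy₀, hy₀C, hy₀A⟩ :=
    exists_mem_layer hT hAC (fun h => hne (le_of_eq h.symm))
  obtain ⟨h1, h2, h3, -⟩ := layer_inf_centralizer hT hC hA hf
  have hNA := hmax (layer A ⊓ Subgroup.centralizer (A : Set P)) (fun a ha =>
    ⟨mem_layer.2 ⟨A.mul_mem ha ha, fun p => hA.commutator_mem p ha⟩, hAC ha⟩) h1 h2 h3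
  exact hy₀A (hNA ▸ ⟨hy₀, hy₀C⟩ : y₀ ∈ A)

/-- The commutator map on the layer of a self-centralising invariant abelian subgroup is trivial
modulo fourth powers. -/
theorem layer_lev_two (hT : IsTrans K) (hC : IsCoord K η n d) (hA : IsGood K A f) (hf : 3 ≤ f)
    [A.Normal] {y a : P} (hy : y ∈ layer A) (ha : a ∈ A) : lev A 2 ⁅y, a⁆ := by
  classical
  have hD1 : ∀ y : P, ∀ a ∈ A, lev A 1 ⁅y, a⁆ := by
    intro y a ha
    refine hA.lev_one hT (hA.commutator_mem y ha) ?_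
    rw [← hA.commutator_pow y ha]
    refine hT.commutator_invol y ?_
    rw [← pow_add, ← two_mul, ← pow_succ', Nat.sub_add_cancel hA.top.1, hA.exp a ha]
  have hroot : ∀ v : F, ∃ a ∈ A, a ^ 2 ^ (f - 1) = η v :=
    fun v => hA.root hT (hC.sq v) (by omega)
  choose rt hrt hrte using hroot
  have hsq : ∀ (z : P), ∀ a ∈ A, ⁅z, a⁆ ^ 2 ^ (f - 2) * ⁅z, a⁆ ^ 2 ^ (f - 2) = 1 := by
    intro z a ha
    rw [← pow_add, ← two_mul, ← pow_succ', show f - 2 + 1 = f - 1 by omega]
    exact hA.lev_pow_eq_one (hD1 z a ha) (by omega)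
  let g : P → F → F := fun z v => lg η (⁅z, rt v⁆ ^ 2 ^ (f - 2))
  have hg : ∀ (z : P), ∀ a ∈ A, ∀ v, a ^ 2 ^ (f - 1) = η v →
      g z v = lg η (⁅z, a⁆ ^ 2 ^ (f - 2)) := by
    intro z a ha v hav
    show lg η _ = _
    congr 1
    have hd : (rt v * a⁻¹) ^ 2 ^ (f - 1) = 1 := by
      rw [hA.mul_pow (hrt v) (A.inv_mem ha), inv_pow, hrte, hav, mul_inv_cancel]
    obtain ⟨b, hb, hbe⟩ := hA.lev_one hT (A.mul_mem (hrt v) (A.inv_mem ha)) hd
    have e : rt v = b ^ 2 * a := by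
      rw [pow_one] at hbe
      rw [hbe, inv_mul_cancel_right]
    rw [e, hA.commutator_mul z (A.pow_mem hb 2) ha, hA.commutator_pow z hb,
      hA.mul_pow (A.pow_mem (hA.commutator_mem z hb) 2) (hA.commutator_mem z ha), ← pow_mul,
      ← pow_succ', show f - 2 + 1 = f - 1 by omega,
      hA.lev_pow_eq_one (hD1 z b hb) (by omega), one_mul]
  have hgv : ∀ z v w, g z (v + w) = g z v + g z w := by
    intro z v w
    rw [hg z (rt v * rt w) (A.mul_mem (hrt v) (hrt w)) (v + w)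
      (by rw [hA.mul_pow (hrt v) (hrt w), hrte, hrte, hC.map_add]),
      hA.commutator_mul z (hrt v) (hrt w),
      hA.mul_pow (hA.commutator_mem z (hrt v)) (hA.commutator_mem z (hrt w)),
      hC.lg_mul (hsq z _ (hrt v)) (hsq z _ (hrt w))]
  have hgy : ∀ y z v, g (y * z) v = g y v + g z v := by
    intro y z v
    obtain ⟨b, hb, hbe⟩ := hD1 z (rt v) (hrt v)
    rw [pow_one] at hbe
    have e : ⁅y, ⁅z, rt v⁆⁆ ^ 2 ^ (f - 2) = 1 := by
      rw [← hbe, hA.commutator_pow y hb, ← pow_mul, ← pow_succ', show f - 2 + 1 = f - 1 by omega]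
      exact hA.lev_pow_eq_one (hD1 y b hb) (by omega)
    have h1 := hA.commutator_mem y (hA.commutator_mem z (hrt v))
    have h2 := hA.commutator_mem z (hrt v)
    show lg η _ = lg η _ + lg η _
    rw [hA.commutator_left y z (hrt v),
      hA.mul_pow (A.mul_mem h1 h2) (hA.commutator_mem y (hrt v)), hA.mul_pow h1 h2, e, one_mul,
      hC.lg_mul (hsq z _ (hrt v)) (hsq y _ (hrt v)), add_comm]
  have hidem : ∀ y ∈ layer A, ∀ v, g y (g y v) = g y v := by
    intro y hy v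
    obtain ⟨u, hu, hue⟩ := hD1 y (rt v) (hrt v)
    rw [pow_one] at hue
    have hgu : u ^ 2 ^ (f - 1) = η (g y v) := by
      show _ = η (lg η _)
      rw [hC.eta_lg (hsq y _ (hrt v)), ← hue, ← pow_mul, ← pow_succ',
        show f - 2 + 1 = f - 1 by omega]
    have hs : ⁅y * y, rt v⁆ = 1 := commutatorElement_eq_one_iff_mul_comm.2
      (hA.comm _ (mem_layer.1 hy).1 _ (hrt v))
    rw [hA.commutator_left y y (hrt v), mul_assoc, ← pow_two] at hs
    have hu' := hA.commutator_mem y hu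
    have hd := hA.commutator_mem y (hrt v)
    have e := congrArg (· ^ 2 ^ (f - 3)) hs
    simp only [one_pow] at e
    rw [hA.mul_pow (hA.commutator_mem y hd) (A.pow_mem hd 2)] at e
    nth_rewrite 1 [← hue] at e
    rw [hA.commutator_pow y hu, ← pow_mul, ← pow_mul, ← pow_succ',
      show f - 3 + 1 = f - 2 by omega] at e
    have h := congrArg (lg η) e
    rw [hC.lg_mul (hsq y u hu) (hsq y _ (hrt v)), hC.lg_one, CharTwo.add_eq_zero] at h
    rw [hg y u hu _ hgu]
    exact h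
  have hcommg : ∀ y ∈ layer A, ∀ z ∈ layer A, ∀ v, g y (g z v) = g z (g y v) := by
    intro y hy z hz v
    have h := hidem (y * z) ((layer A).mul_mem hy hz) v
    simp only [hgy] at h
    rw [hgv, hgv, hidem y hy, hidem z hz] at h
    have e : g y (g z v) + g z (g y v) = 0 := by
      have h2 := congrArg (fun w => w + (g y v + g z v)) h
      simp only [CharTwo.add_self_eq_zero] at h2
      have ha := CharTwo.add_self_eq_zero (g y v)
      have hb := CharTwo.add_self_eq_zero (g z v)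
      calc g y (g z v) + g z (g y v)
          = g y v + g y (g z v) + (g z (g y v) + g z v) + (g y v + g z v)
            - ((g y v + g y v) + (g z v + g z v)) := by ring
        _ = _ := by rw [h2, ha, hb, add_zero, sub_zero]
    exact CharTwo.add_eq_zero.1 e
  have hequiv : ∀ (k : K) (z : P) (v : F),
      g ((k : MulAut P) z) (sl η k v) = sl η k (g z v) := by
    intro k z v
    rw [hg _ ((k : MulAut P) (rt v)) (hA.inv k _ (hrt v)) _
      (by rw [← map_pow, hrte, hC.equiv]), ← map_commutator', ← map_pow,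
      hC.lg_map k (hsq z _ (hrt v))]
  have := hT.finite
  -- a common eigenvector
  obtain ⟨v₁, hv₁, hv₁e⟩ : ∃ v : F, v ≠ 0 ∧ ∀ y ∈ layer A, g y v = 0 ∨ g y v = v := by
    obtain ⟨v, hv, hmax⟩ := Set.Finite.exists_maximalFor
      (fun v : F => {y : P | y ∈ layer A ∧ (g y v = 0 ∨ g y v = v)}) {v : F | v ≠ 0}
      (Set.toFinite _) ⟨1, one_ne_zero⟩
    refine ⟨v, hv, fun y hy => ?_⟩
    by_contra hcon
    push Not at hcon
    have hy0 : ∀ z : P, g z 0 = 0 := fun z => by simpa using hgv z 0 0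
    have hsub : {z : P | z ∈ layer A ∧ (g z v = 0 ∨ g z v = v)} ⊆
        {z : P | z ∈ layer A ∧ (g z (g y v) = 0 ∨ g z (g y v) = g y v)} := by
      rintro z ⟨hz, hzv⟩
      refine ⟨hz, ?_⟩
      rw [hcommg z hz y hy]
      rcases hzv with h | h
      · exact Or.inl (by rw [h, hy0])
      · exact Or.inr (by rw [h])
    have hmem : y ∈ {z : P | z ∈ layer A ∧ (g z v = 0 ∨ g z v = v)} :=
      hmax (show g y v ≠ 0 from hcon.1) hsub ⟨hy, Or.inr (hidem y hy v)⟩
    rcases hmem.2 with h | h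
    · exact hcon.1 h
    · exact hcon.2 h
  -- every vector is an eigenvector
  have hall : ∀ v, ∀ y ∈ layer A, g y v = 0 ∨ g y v = v := by
    intro v y hy
    by_cases hv : v = 0
    · subst hv; exact Or.inl (by simpa using hgv y 0 0)
    obtain ⟨k, hk⟩ := hC.sl_trans hT hv₁ hv
    have hmem : (k : MulAut P).symm y ∈ layer A := by
      have := map_mem_layer hA.inv k⁻¹ hy
      simpa using this
    have h := hequiv k ((k : MulAut P).symm y) v₁
    rw [MulEquiv.apply_symm_apply, hk] at h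
    rcases hv₁e _ hmem with h0 | h0
    · exact Or.inl (by rw [h, h0, hC.sl_zero])
    · exact Or.inr (by rw [h, h0, hk])
  -- the kernel
  have hzero : ∀ z ∈ layer A, ∀ v, g z v = 0 := by
    by_contra hcon
    push Not at hcon
    obtain ⟨z, hz, v, hzv⟩ := hcon
    have hid : ∀ w ∈ layer A, (∀ u, g w u = 0) ∨ (∀ u, g w u = u) := by
      intro w hw
      by_cases h : ∀ u, g w u = 0
      · exact Or.inl h
      refine Or.inr fun u => ?_
      push Not at h
      obtain ⟨x, hx⟩ := h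
      have hxx : g w x = x := (hall x w hw).resolve_left hx
      rcases hall u w hw with hu | hu
      · rcases hall (x + u) w hw with h2 | h2
        · rw [hgv, hxx, hu, add_zero] at h2
          exact absurd (hxx.trans h2) hx
        · rw [hgv, hxx, hu, add_zero, left_eq_add] at h2
          rw [hu, h2]
      · exact hu
    let M : Subgroup P :=
      { carrier := {w | w ∈ layer A ∧ ∀ u, g w u = 0}
        one_mem' := ⟨(layer A).one_mem, fun u => by
          show lg η _ = 0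
          rw [commutatorElement_one_left, one_pow, hC.lg_one]⟩
        mul_mem' := fun {p q} hp hq => ⟨(layer A).mul_mem hp.1 hq.1, fun u => by
          rw [hgy, hp.2, hq.2, add_zero]⟩
        inv_mem' := fun {p} hp => ⟨(layer A).inv_mem hp.1, fun u => by
          have := hgy p p⁻¹ u
          rw [mul_inv_cancel, hp.2, zero_add] at this
          rw [← this]
          show lg η _ = 0
          rw [commutatorElement_one_left, one_pow, hC.lg_one]⟩ }
    obtain ⟨k, p, e, hp, hp2, hord, hkfree⟩ := hT.exists_odd_element hC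
    let S := {w : P // w ∈ layer A ∧ ∀ u, g w u = u}
    have hzS : ∀ u, g z u = u := (hid z hz).resolve_left fun h => hzv (h v)
    have hcard : Nat.card S = Nat.card M := by
      refine (Nat.card_congr ?_).symm
      exact
        { toFun := fun m => ⟨z * m.1, (layer A).mul_mem hz m.2.1, fun u => by
            rw [hgy, hzS, m.2.2, add_zero]⟩
          invFun := fun s => ⟨z⁻¹ * s.1, (layer A).mul_mem ((layer A).inv_mem hz) s.2.1, fun u => by
            have h1 := hgy z (z⁻¹ * s.1) u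
            rw [mul_inv_cancel_left, hzS, s.2.2] at h1
            exact left_eq_add.1 h1⟩
          left_inv := fun m => Subtype.ext (inv_mul_cancel_left z m.1)
          right_inv := fun s => Subtype.ext (mul_inv_cancel_left z s.1) }
    have hstab : ∀ (l : K) (w : P), (w ∈ layer A ∧ ∀ u, g w u = u) →
        ((l : MulAut P) w ∈ layer A ∧ ∀ u, g ((l : MulAut P) w) u = u) := by
      rintro l w ⟨hw, hwu⟩
      refine ⟨map_mem_layer hA.inv l hw, fun u => ?_⟩
      have := hequiv l w (sl η (l : MulAut P).symm u)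
      rwa [hC.sl_symm, hwu, hC.sl_symm] at this
    let : MulAction (Subgroup.zpowers k) S :=
      { smul := fun l s => ⟨((l : K) : MulAut P) s.1, hstab l s.1 s.2⟩
        one_smul := fun s => Subtype.ext rfl
        mul_smul := fun l m s => Subtype.ext rfl }
    have := Fact.mk hp
    have hKp : IsPGroup p (Subgroup.zpowers k) :=
      IsPGroup.of_card (n := e) (by rw [Nat.card_zpowers, hord])
    have hmod := hKp.card_modEq_card_fixedPoints S
    have hfix : Nat.card (MulAction.fixedPoints (Subgroup.zpowers k) S) = 0 := by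
      have : IsEmpty (MulAction.fixedPoints (Subgroup.zpowers k) S) := by
        refine ⟨fun s => ?_⟩
        have h1 : (k : MulAut P) (s.1.1) = s.1.1 :=
          congrArg Subtype.val (s.2 ⟨k, Subgroup.mem_zpowers k⟩)
        have hs1 : s.1.1 ≠ 1 := by
          intro h
          have h2 := s.1.2.2 1
          rw [h] at h2
          have h3 : lg η (⁅(1 : P), rt 1⁆ ^ 2 ^ (f - 2)) = 1 := h2
          rw [commutatorElement_one_left, one_pow, hC.lg_one] at h3
          exact zero_ne_one h3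
        exact hkfree _ hs1 h1
      exact Nat.card_of_isEmpty
    rw [hfix, hcard] at hmod
    obtain ⟨m, hm⟩ := IsPGroup.iff_card.1 (hT.isPGroup.to_subgroup M)
    rw [hm] at hmod
    have hdvd : p ∣ 2 ^ m := (Nat.modEq_zero_iff_dvd).1 hmod
    exact hp2 ((Nat.prime_dvd_prime_iff_eq hp Nat.prime_two).1 (hp.dvd_of_dvd_pow hdvd))
  -- conclusion
  have h := hzero y hy (lg η (a ^ 2 ^ (f - 1)))
  have hasq : a ^ 2 ^ (f - 1) * a ^ 2 ^ (f - 1) = 1 := by
    rw [← pow_add, ← two_mul, ← pow_succ', Nat.sub_add_cancel hA.top.1, hA.exp a ha]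
  rw [hg y a ha _ (hC.eta_lg hasq).symm] at h
  have h1 := hC.eq_one_of_lg (hsq y a ha) h
  obtain ⟨u, hu, hue⟩ := hD1 y a ha
  rw [← hue, ← pow_mul, ← pow_add, show 1 + (f - 2) = f - 1 by omega] at h1
  obtain ⟨b, hb, hbe⟩ := hA.lev_one hT hu h1
  exact ⟨b, hb, by rw [← hue, ← hbe, ← pow_mul, ← pow_add]⟩

/-- One step up the filtration: if all commutators with the layer are `2 ^ j`-th powers, they are
`2 ^ (j + 1)`-th powers. -/
theorem layer_lev_succ (hT : IsTrans K) (hC : IsCoord K η n d) (hA : IsGood K A f) (hf : 3 ≤ f)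
    [A.Normal] {j : ℕ} (hj : 2 ≤ j) (hjf : j < f)
    (hD : ∀ y ∈ layer A, ∀ a ∈ A, lev A j ⁅y, a⁆)
    (hne : ∃ y ∈ layer A, y ∉ A) :
    ∀ y ∈ layer A, ∀ a ∈ A, lev A (j + 1) ⁅y, a⁆ := by
  have hD2 : ∀ y ∈ layer A, ∀ a ∈ A, lev A 2 ⁅y, a⁆ := fun y hy a ha => lev_mono hj (hD y hy a ha)
  set N := layer A
  let φ : P → F := fun x => lg η ((x * x) ^ 2 ^ (f - 1))
  have hinvol : ∀ x ∈ N, (x * x) ^ 2 ^ (f - 1) * (x * x) ^ 2 ^ (f - 1) = 1 := fun x hx => by
    rw [← pow_add, ← two_mul, ← pow_succ', Nat.sub_add_cancel hA.top.1,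
      hA.exp _ (mem_layer.1 hx).1]
  have hφmul : ∀ x ∈ N, ∀ y ∈ N, φ (x * y) = φ x + φ y := by
    intro x hx y hy
    have hxx := (mem_layer.1 hx).1
    have hyy := (mem_layer.1 hy).1
    set c := x⁻¹ * y * x * y⁻¹ with hc
    have hcA : c ∈ A := by
      rw [hc]
      simpa [commutatorElement_def] using (mem_layer.1 (N.inv_mem hy)).2 x⁻¹ |> fun h => by
        have h1 := (mem_layer.1 hy).2 x⁻¹
        simpa [commutatorElement_def] using h1
    have e : y * (x * x) * y⁻¹ = (x * x) * (⁅x⁻¹, c⁆ * (c * c)) := by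
      rw [hc]; simp only [commutatorElement_def]; group
    have e' : ⁅y, x * x⁆ = ⁅x⁻¹, c⁆ * (c * c) := by
      calc ⁅y, x * x⁆ = y * (x * x) * y⁻¹ * (x * x)⁻¹ := by rw [commutatorElement_def]
        _ = (x * x) * (⁅x⁻¹, c⁆ * (c * c)) * (x * x)⁻¹ := by rw [e]
        _ = _ := by
          rw [hA.comm _ hxx _ (A.mul_mem (hA.commutator_mem _ hcA) (A.mul_mem hcA hcA)),
            mul_inv_cancel_right]
    have hcc : lev A 2 (c * c) := by
      have h1 := hA.lev_mul (lev_inv (hD2 x⁻¹ (N.inv_mem hx) c hcA)) (hD2 y hy _ hxx)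
      rw [e', inv_mul_cancel_left] at h1
      exact h1
    obtain ⟨b, hb, hbe⟩ := hcc
    have hinv2 : (c * (b ^ 2)⁻¹) * (c * (b ^ 2)⁻¹) = 1 := by
      have hb2 := A.inv_mem (A.pow_mem hb 2)
      calc (c * (b ^ 2)⁻¹) * (c * (b ^ 2)⁻¹) = c * ((b ^ 2)⁻¹ * c) * (b ^ 2)⁻¹ := by group
        _ = (c * c) * (b ^ 2 ^ 2)⁻¹ := by rw [← hA.comm c hcA _ hb2]; group
        _ = 1 := by rw [hbe, mul_inv_cancel]
    have hc1 : lev A 1 c := by
      have h1 := hA.lev_mul (hA.root hT hinv2 (show 1 < f by omega))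
        (⟨b, hb, by rw [pow_one]⟩ : lev A 1 (b ^ 2))
      rwa [inv_mul_cancel_right] at h1
    have e2 : x * y * (x * y) = (x * x) * c * (y * y) := by rw [hc]; group
    show lg η _ = lg η _ + lg η _
    rw [e2, hA.mul_pow (A.mul_mem hxx hcA) hyy, hA.mul_pow hxx hcA,
      hA.lev_pow_eq_one hc1 (show f ≤ 1 + (f - 1) by omega), mul_one,
      hC.lg_mul (hinvol x hx) (hinvol y hy)]
  have hφ1 : φ 1 = 0 := by
    show lg η _ = 0
    rw [mul_one, one_pow, hC.lg_one]
  have hsolve : ∀ y ∈ N, ∀ i, 1 ≤ i → ∀ c, lev A i c → ∃ w ∈ A, w * w * ⁅y, w⁆ = c := by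
    intro y hy i
    induction hd : f - i using Nat.strong_induction_on generalizing i with
    | _ d ihd =>
      intro hi c hc
      by_cases hif : f ≤ i
      · refine ⟨1, A.one_mem, ?_⟩
        have := hA.lev_pow_eq_one (j := 0) hc (by omega)
        simp at this
        simp [this]
      · obtain ⟨b, hb, rfl⟩ := hc
        set w := b ^ 2 ^ (i - 1) with hw
        have hwA : w ∈ A := A.pow_mem hb _
        have hlev : lev A (i + 1) ⁅y, w⁆ := by
          obtain ⟨u, hu, hue⟩ := hD2 y hy b hb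
          refine ⟨u, hu, ?_⟩
          rw [hw, hA.commutator_pow y hb, ← hue, ← pow_mul, ← pow_add]
          congr 2
          omega
        obtain ⟨w', hw', hwe⟩ := ihd (f - (i + 1)) (by omega) (i + 1) rfl (by omega) _ (lev_inv hlev)
        refine ⟨w * w', A.mul_mem hwA hw', ?_⟩
        have h1 : w * w = b ^ 2 ^ i := by
          rw [hw, ← pow_add, ← two_mul, ← pow_succ', Nat.sub_add_cancel hi]
        have hcw := hA.commutator_mem y hwA
        have hcw' := hA.commutator_mem y hw'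
        rw [hA.commutator_mul y hwA hw']
        calc w * w' * (w * w') * (⁅y, w⁆ * ⁅y, w'⁆)
            = w * (w' * w) * w' * (⁅y, w⁆ * ⁅y, w'⁆) := by group
          _ = (w * w) * ((w' * w') * ⁅y, w⁆) * ⁅y, w'⁆ := by rw [hA.comm w' hw' w hwA]; group
          _ = (w * w) * (⁅y, w⁆ * (w' * w' * ⁅y, w'⁆)) := by
              rw [hA.comm _ (A.mul_mem hw' hw') _ hcw]; group
          _ = b ^ 2 ^ i := by rw [hwe, mul_inv_cancel, mul_one, h1]
  have hker : ∀ y ∈ N, φ y = 0 → y ∈ A := by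
    intro y hy h
    obtain ⟨h1, h2⟩ := mem_layer.1 hy
    obtain ⟨w, hw, hwe⟩ := hsolve y hy 1 le_rfl (y * y)⁻¹
      (lev_inv (hA.lev_one hT h1 (hC.eq_one_of_lg (hinvol y hy) h)))
    have e : (w * y) * (w * y) = 1 := by
      calc (w * y) * (w * y) = w * (⁅y, w⁆ * w) * (y * y) := by
            simp only [commutatorElement_def]; group
        _ = w * w * ⁅y, w⁆ * (y * y) := by rw [hA.comm _ (hA.commutator_mem y hw) w hw]; group
        _ = 1 := by rw [hwe, inv_mul_cancel]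
    have := A.mul_mem (A.inv_mem hw) (hT.involution_mem hA.inv hA.ne_bot e)
    rwa [inv_mul_cancel_left] at this
  have hφk : ∀ (k : K), ∀ x ∈ N, φ ((k : MulAut P) x) = sl η k (φ x) := by
    intro k x hx
    show lg η _ = _
    rw [← map_mul, ← map_pow, hC.lg_map k (hinvol x hx)]
  have hsurj : Function.Surjective (fun x : N => φ x) := by
    obtain ⟨y₀, hy₀, hy₀A⟩ := hne
    refine hC.surjective_of_equivariant hT _ (fun k x => ?_) ⟨1, hφ1⟩
      ⟨⟨y₀, hy₀⟩, fun h => hy₀A (hker y₀ hy₀ h)⟩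
    exact ⟨⟨_, map_mem_layer hA.inv k x.2⟩, hφk k x x.2⟩
  choose sec hsec using hsurj
  have hroot : ∀ v : F, ∃ a ∈ A, a ^ 2 ^ (f - 1) = η v :=
    fun v => hA.root hT (hC.sq v) (by omega)
  choose rt hrt hrte using hroot
  set e := f - 1 - j with he
  have hsq : ∀ z ∈ N, ∀ a ∈ A, ⁅z, a⁆ ^ 2 ^ e * ⁅z, a⁆ ^ 2 ^ e = 1 := by
    intro z hz a ha
    rw [← pow_add, ← two_mul, ← pow_succ']
    exact hA.lev_pow_eq_one (hD z hz a ha) (by omega)
  have hsame : ∀ z ∈ N, ∀ a ∈ A, ∀ a' ∈ A, a ^ 2 ^ (f - 1) = a' ^ 2 ^ (f - 1) →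
      ⁅z, a⁆ ^ 2 ^ e = ⁅z, a'⁆ ^ 2 ^ e := by
    intro z hz a ha a' ha' h
    have hd : (a * a'⁻¹) ^ 2 ^ (f - 1) = 1 := by
      rw [hA.mul_pow ha (A.inv_mem ha'), inv_pow, h, mul_inv_cancel]
    obtain ⟨b, hb, hbe⟩ := hA.lev_one hT (A.mul_mem ha (A.inv_mem ha')) hd
    rw [pow_one] at hbe
    have e1 : a = b ^ 2 * a' := by rw [hbe, inv_mul_cancel_right]
    rw [e1, hA.commutator_mul z (A.pow_mem hb 2) ha', hA.commutator_pow z hb,
      hA.mul_pow (A.pow_mem (hA.commutator_mem z hb) 2) (hA.commutator_mem z ha'), ← pow_mul,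
      ← pow_succ', hA.lev_pow_eq_one (hD z hz b hb) (by omega), one_mul]
  have hleft : ∀ y ∈ N, ∀ z ∈ N, ∀ a ∈ A,
      lg η (⁅y * z, a⁆ ^ 2 ^ e) = lg η (⁅y, a⁆ ^ 2 ^ e) + lg η (⁅z, a⁆ ^ 2 ^ e) := by
    intro y hy z hz a ha
    obtain ⟨b, hb, hbe⟩ := hD z hz a ha
    have h0 : ⁅y, ⁅z, a⁆⁆ ^ 2 ^ e = 1 := by
      rw [← hbe, hA.commutator_pow y hb, ← pow_mul, ← pow_add]
      exact hA.lev_pow_eq_one (hD y hy b hb) (by omega)
    have h1 := hA.commutator_mem y (hA.commutator_mem z ha)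
    have h2 := hA.commutator_mem z ha
    rw [hA.commutator_left y z ha, hA.mul_pow (A.mul_mem h1 h2) (hA.commutator_mem y ha),
      hA.mul_pow h1 h2, h0, one_mul, hC.lg_mul (hsq z hz a ha) (hsq y hy a ha), add_comm]
  -- only the class of the left entry matters
  have hwd : ∀ x ∈ N, ∀ x' ∈ N, ∀ a ∈ A, φ x = φ x' →
      lg η (⁅x, a⁆ ^ 2 ^ e) = lg η (⁅x', a⁆ ^ 2 ^ e) := by
    intro x hx x' hx' a ha h
    have hd : x'⁻¹ * x ∈ N := N.mul_mem (N.inv_mem hx') hx
    have hφd : φ (x'⁻¹ * x) = 0 := by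
      have h1 := hφmul x' hx' (x'⁻¹ * x) hd
      rw [mul_inv_cancel_left, h] at h1
      exact left_eq_add.1 h1
    have h0 : ⁅x'⁻¹ * x, a⁆ = 1 :=
      commutatorElement_eq_one_iff_mul_comm.2 (hA.comm _ (hker _ hd hφd) a ha)
    have h2 := hleft x' hx' _ hd a ha
    rwa [mul_inv_cancel_left, h0, one_pow, hC.lg_one, add_zero] at h2
  let β : F → F → F := fun u v => lg η (⁅(sec u : P), rt v⁆ ^ 2 ^ e)
  have hβ : ∀ y ∈ N, ∀ a ∈ A, ∀ v, a ^ 2 ^ (f - 1) = η v →
      β (φ y) v = lg η (⁅y, a⁆ ^ 2 ^ e) := by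
    intro y hy a ha v hav
    show lg η _ = _
    rw [hwd _ (sec (φ y)).2 y hy _ (hrt v) (hsec _),
      hsame y hy _ (hrt v) a ha (by rw [hrte, hav])]
  have hzero := alternating_eq_zero hC.param hC.card β
    (fun u v w => by
      rw [← hsec u, ← hsec v, ← hφmul _ (sec u).2 _ (sec v).2,
        hβ _ (N.mul_mem (sec u).2 (sec v).2) _ (hrt w) w (hrte w),
        hβ _ (sec u).2 _ (hrt w) w (hrte w), hβ _ (sec v).2 _ (hrt w) w (hrte w)]
      exact hleft _ (sec u).2 _ (sec v).2 _ (hrt w))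
    (fun u v w => by
      rw [← hsec u, hβ _ (sec u).2 _ (A.mul_mem (hrt v) (hrt w)) (v + w)
        (by rw [hA.mul_pow (hrt v) (hrt w), hrte, hrte, hC.map_add]),
        hβ _ (sec u).2 _ (hrt v) v (hrte v), hβ _ (sec u).2 _ (hrt w) w (hrte w),
        hA.commutator_mul _ (hrt v) (hrt w),
        hA.mul_pow (hA.commutator_mem _ (hrt v)) (hA.commutator_mem _ (hrt w)),
        hC.lg_mul (hsq _ (sec u).2 _ (hrt v)) (hsq _ (sec u).2 _ (hrt w))])
    (fun c hc u v => by
      obtain ⟨k, hk⟩ := hC.sl_scal hc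
      rw [← hk u, ← hk v, ← hk (β u v)]
      rw [← hsec u, ← hφk k _ (sec u).2,
        hβ _ (map_mem_layer hA.inv k (sec u).2) _ (hA.inv k _ (hrt v)) _
          (by rw [← map_pow, hrte, hC.equiv]),
        ← map_commutator', ← map_pow, hC.lg_map k (hsq _ (sec u).2 _ (hrt v)),
        hβ _ (sec u).2 _ (hrt v) v (hrte v)])
    (fun u => by
      obtain ⟨h1, -⟩ := mem_layer.1 (sec u).2
      rw [← hsec u]
      rw [hβ _ (sec u).2 _ h1 _ (hC.eta_lg (hinvol _ (sec u).2)).symm]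
      have : ⁅(sec u : P), (sec u : P) * sec u⁆ = 1 :=
        commutatorElement_eq_one_iff_mul_comm.2 (mul_assoc _ _ _).symm
      rw [this, one_pow, hC.lg_one])
  intro y hy a ha
  have hasq : a ^ 2 ^ (f - 1) * a ^ 2 ^ (f - 1) = 1 := by
    rw [← pow_add, ← two_mul, ← pow_succ', Nat.sub_add_cancel hA.top.1, hA.exp a ha]
  have h := hC.eq_one_of_lg (hsq y hy a ha)
    (by rw [← hβ y hy a ha _ (hC.eta_lg hasq).symm]; exact hzero _ _)
  obtain ⟨u, hu, hue⟩ := hD y hy a ha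
  rw [← hue, ← pow_mul, ← pow_add, show j + e = f - 1 by omega] at h
  obtain ⟨b, hb, hbe⟩ := hA.lev_one hT hu h
  exact ⟨b, hb, by rw [← hue, ← hbe, ← pow_mul, ← pow_add, add_comm 1 j]⟩

/-- Every invariant abelian normal subgroup has exponent at most four. -/
theorem pow_four_eq_one (hT : IsTrans K) (hC : IsCoord K η n d) {A : Subgroup P} (hn : A.Normal)
    (hc : ∀ a ∈ A, ∀ b ∈ A, a * b = b * a) (hinv : ∀ (k : K), ∀ a ∈ A, (k : MulAut P) a ∈ A)
    {a : P} (ha : a ∈ A) : a ^ 4 = 1 := by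
  by_contra hne
  have := hT.finite
  obtain ⟨B, hAB, hB⟩ := Set.Finite.exists_le_maximal
    (s := {B : Subgroup P | B.Normal ∧ (∀ a ∈ B, ∀ b ∈ B, a * b = b * a) ∧
      ∀ (k : K), ∀ a ∈ B, (k : MulAut P) a ∈ B}) (Set.toFinite _) ⟨hn, hc, hinv⟩
  obtain ⟨hBn, hBc, hBi⟩ := hB.1
  have haB : a ∈ B := hAB ha
  obtain ⟨f, hf⟩ := exists_isGood hT hBn hBc hBi (fun h => hne (by
    rw [h, Subgroup.mem_bot] at haB
    rw [haB, one_pow]))
  have hf3 : 3 ≤ f := by
    by_contra hlt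
    apply hne
    obtain ⟨d, hd⟩ := Nat.exists_eq_add_of_le (show f ≤ 2 by omega)
    have h4 : (4 : ℕ) = 2 ^ f * 2 ^ d := by rw [← pow_add, ← hd]; norm_num
    rw [h4, pow_mul, hf.exp a haB, one_pow]
  have hcent := centralizer_le_of_maximal hT hC hf (by omega)
    (fun D hBD hD1 hD2 hD3 => le_antisymm (hB.2 ⟨hD1, hD2, hD3⟩ hBD) hBD)
  have htop : B ≠ ⊤ := by
    intro h
    obtain ⟨x, y, hxy⟩ := hT.nonab
    exact hxy (hBc x (h ▸ Subgroup.mem_top x) y (h ▸ Subgroup.mem_top y))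
  obtain ⟨y₀, hy₀, -, hy₀B⟩ := exists_mem_layer hT (A := B) (C := ⊤) le_top htop
  have hall : ∀ j, 2 ≤ j → j ≤ f → ∀ y ∈ layer B, ∀ a ∈ B, lev B j ⁅y, a⁆ := by
    intro j hj
    induction j, hj using Nat.le_induction with
    | base => intro _ y hy a ha; exact layer_lev_two hT hC hf hf3 hy ha
    | succ j hj ih =>
      intro hjf
      exact layer_lev_succ hT hC hf hf3 hj (by omega) (ih (by omega)) ⟨y₀, hy₀, hy₀B⟩
  refine hy₀B (hcent (Subgroup.mem_centralizer_iff.2 fun b hb => ?_))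
  have h := hf.lev_pow_eq_one (j := 0) (hall f (by omega) le_rfl y₀ hy₀ b hb) (by omega)
  rw [pow_zero, pow_one, commutatorElement_eq_one_iff_mul_comm] at h
  exact h.symm

end CfsgLib.SuzukiTrans
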