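import Cfsg.Agent.Lib.SuzukiTrans.Abelian
import Mathlib.GroupTheory.QuotientGroup.Finite
import Mathlib.GroupTheory.Index

/-!
2-groups with a group transitive on the involutions: the centre consists of the elements with
trivial square; the central layer over it.
-/

set_option autoImplicit false

namespace CfsgLib.SuzukiTrans

open scoped commutatorElement

universe u

variable {P : Type u} [Group P] {F : Type*} [Field F] [Fintype F] [CharP F 2]
variable {K : Subgroup (MulAut P)} {η : F → P} {n d : ℕ}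

omit [Fintype F] [CharP F 2] in
theorem map_mem_center (k : MulAut P) {z : P} (hz : z ∈ Subgroup.center P) :
    k z ∈ Subgroup.center P := by
  rw [Subgroup.mem_center_iff] at hz ⊢
  intro g
  have := congrArg k (hz (k.symm g))
  simpa using this

/-- The centre has exponent two. -/
theorem center_sq_eq_one (hT : IsTrans K) (hC : IsCoord K η n d) {z : P}
    (hz : z ∈ Subgroup.center P) : z * z = 1 := by
  by_contra hne
  have hn : (Subgroup.center P).Normal := inferInstance
  have hc : ∀ a ∈ Subgroup.center P, ∀ b ∈ Subgroup.center P, a * b = b * a :=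
    fun a _ b hb => Subgroup.mem_center_iff.1 hb a
  have hinv : ∀ (k : K), ∀ a ∈ Subgroup.center P, (k : MulAut P) a ∈ Subgroup.center P :=
    fun k a ha => map_mem_center _ ha
  obtain ⟨e, he, hee⟩ := hT.exists_involution
  obtain ⟨f, hf⟩ := exists_isGood hT hn hc hinv (fun h => he (by
    have := hT.involution_central hee
    rwa [h, Subgroup.mem_bot] at this))
  have hf2 : f = 2 := by
    rcases Nat.lt_trichotomy f 2 with h | h | h
    · refine absurd ?_ hne
      have h1 : f = 1 := by have := hf.top.1; omega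
      have h2 := hf.exp z hz
      rwa [h1, pow_one, pow_two] at h2
    · exact h
    · obtain ⟨a, ha, ha1⟩ := hf.top.2
      refine absurd ?_ ha1
      obtain ⟨d, hd⟩ := Nat.exists_eq_add_of_le (show 2 ≤ f - 1 by omega)
      rw [hd, pow_add, pow_mul]
      norm_num [pow_four_eq_one hT hC hn hc hinv ha]
  obtain ⟨h1, h2, h3, h4⟩ := layer_inf_centralizer hT hC hf (by omega)
  have htop : Subgroup.center P ≠ ⊤ := by
    intro h
    obtain ⟨x, y, hxy⟩ := hT.nonab
    exact hxy (Subgroup.mem_center_iff.1 (h ▸ Subgroup.mem_top y) x)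
  obtain ⟨y, hy, -, hyZ⟩ := exists_mem_layer hT (A := Subgroup.center P) (C := ⊤) le_top htop
  have hyN : y ∈ layer (Subgroup.center P) ⊓
      Subgroup.centralizer ((Subgroup.center P : Subgroup P) : Set P) :=
    ⟨hy, Subgroup.mem_centralizer_iff.2 fun b hb => (Subgroup.mem_center_iff.1 hb y).symm⟩
  refine hyZ (h4 y hyN ?_)
  have h5 := pow_four_eq_one hT hC h1 h2 h3 hyN
  rw [hf2, ← pow_two, ← pow_mul]
  simpa using h5

theorem mem_center_iff_sq (hT : IsTrans K) (hC : IsCoord K η n d) {x : P} :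
    x ∈ Subgroup.center P ↔ x * x = 1 :=
  ⟨center_sq_eq_one hT hC, hT.involution_central⟩

/-- The coordinate of the square. -/
noncomputable def sqc (η : F → P) (y : P) : F := lg η (y * y)

omit [Fintype F] [CharP F 2] in
theorem commutator_left_center {p p' y : P} (h : ⁅p', y⁆ ∈ Subgroup.center P) :
    ⁅p * p', y⁆ = ⁅p, y⁆ * ⁅p', y⁆ := by
  calc ⁅p * p', y⁆ = p * ⁅p', y⁆ * p⁻¹ * ⁅p, y⁆ := by simp only [commutatorElement_def]; group
    _ = ⁅p', y⁆ * ⁅p, y⁆ := by rw [Subgroup.mem_center_iff.1 h p, mul_inv_cancel_right]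
    _ = _ := (Subgroup.mem_center_iff.1 h _).symm

omit [Fintype F] [CharP F 2] in
theorem commutator_right_center {p y z : P} (h : ⁅p, z⁆ ∈ Subgroup.center P) :
    ⁅p, y * z⁆ = ⁅p, y⁆ * ⁅p, z⁆ := by
  calc ⁅p, y * z⁆ = ⁅p, y⁆ * (y * ⁅p, z⁆ * y⁻¹) := by simp only [commutatorElement_def]; group
    _ = _ := by rw [Subgroup.mem_center_iff.1 h y, mul_inv_cancel_right]

section layer

variable (hT : IsTrans K) (hC : IsCoord K η n d)
include hT hC

theorem layer_sq {y : P} (hy : y ∈ layer (Subgroup.center P)) : (y * y) * (y * y) = 1 :=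
  center_sq_eq_one hT hC (mem_layer.1 hy).1

theorem layer_comm_sq {p y : P} (hy : y ∈ layer (Subgroup.center P)) : ⁅p, y⁆ * ⁅p, y⁆ = 1 :=
  center_sq_eq_one hT hC ((mem_layer.1 hy).2 p)

theorem sqc_mul {y z : P} (hy : y ∈ layer (Subgroup.center P))
    (hz : z ∈ layer (Subgroup.center P)) :
    sqc η (y * z) = sqc η y + sqc η z + lg η ⁅z, y⁆ := by
  have h1 := (mem_layer.1 hy).2 z
  have h2 := (mem_layer.1 hz).1
  have e : y * z * (y * z) = (y * y) * (⁅z, y⁆ * (z * z)) := by
    have e1 : y * z * (y * z) = y * ⁅z, y⁆ * y * (z * z) := by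
      simp only [commutatorElement_def]; group
    rw [e1, mul_assoc y ⁅z, y⁆ y, ← Subgroup.mem_center_iff.1 h1 y]
    group
  show lg η _ = lg η _ + lg η _ + lg η _
  rw [e, hC.lg_mul (layer_sq hT hC hy) (center_sq_eq_one hT hC (Subgroup.mul_mem _ h1 h2)),
    hC.lg_mul (center_sq_eq_one hT hC h1) (center_sq_eq_one hT hC h2)]
  ring

theorem lg_commutator_mul {p p' y : P} (hy : y ∈ layer (Subgroup.center P)) :
    lg η ⁅p * p', y⁆ = lg η ⁅p, y⁆ + lg η ⁅p', y⁆ := by
  rw [commutator_left_center ((mem_layer.1 hy).2 p'),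
    hC.lg_mul (layer_comm_sq hT hC hy) (layer_comm_sq hT hC hy)]

theorem lg_commutator_mul_right {p y z : P} (hy : y ∈ layer (Subgroup.center P))
    (hz : z ∈ layer (Subgroup.center P)) :
    lg η ⁅p, y * z⁆ = lg η ⁅p, y⁆ + lg η ⁅p, z⁆ := by
  rw [commutator_right_center ((mem_layer.1 hz).2 p),
    hC.lg_mul (layer_comm_sq hT hC hy) (layer_comm_sq hT hC hz)]

theorem sqc_center {z : P} (hz : z ∈ Subgroup.center P) : sqc η z = 0 := by
  show lg η _ = 0
  rw [center_sq_eq_one hT hC hz, hC.lg_one]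

theorem sqc_eq_zero {y : P} (hy : y ∈ layer (Subgroup.center P)) (h : sqc η y = 0) :
    y ∈ Subgroup.center P :=
  hT.involution_central (hC.eq_one_of_lg (layer_sq hT hC hy) h)

theorem sqc_map (k : K) {y : P} (hy : y ∈ layer (Subgroup.center P)) :
    sqc η ((k : MulAut P) y) = sl η k (sqc η y) := by
  show lg η _ = sl η k (lg η _)
  rw [← map_mul, hC.lg_map _ (layer_sq hT hC hy)]

theorem map_mem_layer_center (k : K) {y : P} (hy : y ∈ layer (Subgroup.center P)) :
    (k : MulAut P) y ∈ layer (Subgroup.center P) :=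
  map_mem_layer (fun k _ ha => map_mem_center _ ha) k hy

theorem center_le_layer : Subgroup.center P ≤ layer (Subgroup.center P) := fun z hz =>
  mem_layer.2 ⟨Subgroup.mul_mem _ hz hz, fun p => by
    rw [commutatorElement_eq_one_iff_mul_comm.2 (Subgroup.mem_center_iff.1 hz p)]
    exact Subgroup.one_mem _⟩

theorem center_ne_top : Subgroup.center P ≠ ⊤ := by
  intro h
  obtain ⟨x, y, hxy⟩ := hT.nonab
  exact hxy (Subgroup.mem_center_iff.1 (h ▸ Subgroup.mem_top y) x)

theorem exists_layer_not_center :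
    ∃ y ∈ layer (Subgroup.center P), y ∉ Subgroup.center P := by
  obtain ⟨y, hy, -, hyZ⟩ :=
    exists_mem_layer hT (A := Subgroup.center P) (C := ⊤) le_top (center_ne_top hT hC)
  exact ⟨y, hy, hyZ⟩

end layer

end CfsgLib.SuzukiTrans
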