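import Cfsg.Agent.Lib.SuzukiTrans.Center

/-!
A 2-group with a solvable group transitive on the involutions has class two.
-/

set_option autoImplicit false

namespace CfsgLib.SuzukiTrans

open scoped commutatorElement
open CfsgLib.SuzukiTwo (eq_sq_of_div_additive eq_sq_of_pow_four)

universe u

variable {P : Type u} [Group P] {F : Type*} [Field F] [Fintype F] [CharP F 2]
variable {K : Subgroup (MulAut P)} {η : F → P} {n d : ℕ}

/-- The commutator with a lift of `w` in the layer. -/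
noncomputable def cmap (η : F → P) (sec : F → P) (p : P) (w : F) : F := lg η ⁅p, sec w⁆

omit [CharP F 2] in
theorem IsCoord.exists_scalar_ne_one (hC : IsCoord K η n d) :
    ∃ c : F, c ≠ 0 ∧ c ^ d ≠ 1 := by
  obtain ⟨g, hg, -⟩ := exists_gen hC.card
  refine ⟨g, g.ne_zero, fun h => ?_⟩
  rw [← pow_zero (g : F)] at h
  have := Nat.pow_le_pow_right (show 1 ≤ 2 by norm_num) hC.param.two_le
  have h3 := (modEq_of_pow_eq hg h).eq_of_lt_of_lt hC.param.lt (by omega)
  have := hC.param.odd.pos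
  omega

/-- The second centre is the whole group. -/
theorem layer_center_eq_top (hT : IsTrans K) (hC : IsCoord K η n d) :
    layer (Subgroup.center P) = ⊤ := by
  classical
  by_contra htop
  have := hT.finite
  set Z := Subgroup.center P with hZ
  set A := layer Z with hAdef
  have hZA : Z ≤ A := center_le_layer hT hC
  have hAn : A.Normal := by
    refine ⟨fun y hy g => mem_layer.2 ⟨?_, fun p => ?_⟩⟩
    · have := (inferInstance : Z.Normal).conj_mem _ (mem_layer.1 hy).1 g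
      simpa [mul_assoc] using this
    · have := (inferInstance : Z.Normal).conj_mem _ ((mem_layer.1 hy).2 (g⁻¹ * p * g)) g
      simpa [commutatorElement_def, mul_assoc] using this
  have hAinv : ∀ (k : K), ∀ a ∈ A, (k : MulAut P) a ∈ A := fun k a ha =>
    map_mem_layer_center hT hC k ha
  have hcl : ∀ (p p' : P), ∀ a ∈ A, lg η ⁅p * p', a⁆ = lg η ⁅p, a⁆ + lg η ⁅p', a⁆ :=
    fun p p' a ha => lg_commutator_mul hT hC ha
  have hcinv : ∀ (p : P), ∀ a ∈ A, lg η ⁅p⁻¹, a⁆ = lg η ⁅p, a⁆ := by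
    intro p a ha
    have h := hcl p p⁻¹ a ha
    rw [mul_inv_cancel, commutatorElement_one_left, hC.lg_one] at h
    exact (CharTwo.add_eq_zero.1 h.symm).symm
  have hcz : ∀ (p : P), ∀ a ∈ A, lg η ⁅p, a⁆ = 0 → p * a = a * p := fun p a ha h =>
    commutatorElement_eq_one_iff_mul_comm.1 (hC.eq_one_of_lg (layer_comm_sq hT hC ha) h)
  have hderA : ∀ (x p : P), ∀ a ∈ A, ⁅x, p⁆ * a = a * ⁅x, p⁆ := by
    intro x p a ha
    refine hcz _ a ha ?_
    show lg η ⁅x * p * x⁻¹ * p⁻¹, a⁆ = 0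
    rw [hcl _ _ a ha, hcl _ _ a ha, hcl _ _ a ha, hcinv x a ha,
      hcinv p a ha]
    have h1 := CharTwo.add_self_eq_zero (lg η ⁅x, a⁆)
    have h2 := CharTwo.add_self_eq_zero (lg η ⁅p, a⁆)
    linear_combination h1 + h2
  -- `A` is abelian and self-centralising
  set A1 := A ⊓ Subgroup.centralizer (A : Set P) with hA1
  have hA1c : ∀ a ∈ A1, ∀ b ∈ A1, a * b = b * a := fun a ha b hb =>
    (Subgroup.mem_centralizer_iff.1 ha.2 b hb.1).symm
  have hA1inv : ∀ (k : K), ∀ a ∈ A1, (k : MulAut P) a ∈ A1 := by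
    rintro k a ⟨ha, hac⟩
    refine ⟨hAinv k a ha, Subgroup.mem_centralizer_iff.2 fun b hb => ?_⟩
    have hb' : (k : MulAut P).symm b ∈ A := by simpa using hAinv k⁻¹ b hb
    have := congrArg (k : MulAut P) (Subgroup.mem_centralizer_iff.1 hac _ hb')
    simpa using this
  have : A1.Normal := ⟨fun n hn g => ⟨hAn.conj_mem n hn.1 g,
    Subgroup.Normal.conj_mem inferInstance n hn.2 g⟩⟩
  have hc : ∃ c ∈ A1, c ∉ Z := by
    obtain ⟨y, hy, -, hyA⟩ := exists_mem_layer hT (A := A) (C := ⊤) le_top htop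
    by_contra hcon
    push Not at hcon
    have hyp : ∀ p, ⁅p, y⁆ ∈ Z := fun p => hcon _ ⟨(mem_layer.1 hy).2 p,
      Subgroup.mem_centralizer_iff.2 fun a ha => (hderA p y a ha).symm⟩
    refine hyA (mem_layer.2 ⟨?_, hyp⟩)
    rw [hZ, Subgroup.mem_center_iff]
    intro p
    rw [← commutatorElement_eq_one_iff_mul_comm, commutator_right_center (hyp p)]
    exact center_sq_eq_one hT hC (hyp p)
  obtain ⟨c₀, hc₀, hc₀Z⟩ := hc
  have hA1g : IsGood K A1 2 := by
    refine ⟨inferInstance, hA1c, hA1inv, fun a ha => ?_, by norm_num, c₀, hc₀, fun h => hc₀Z ?_⟩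
    · have := layer_sq hT hC ha.1
      simpa [pow_succ, mul_assoc] using this
    · refine hT.involution_central ?_
      simpa [pow_two] using h
  have hsc : Subgroup.centralizer (A1 : Set P) ≤ A1 := by
    by_contra hne
    have hle : A1 ≤ Subgroup.centralizer (A1 : Set P) := fun a ha =>
      Subgroup.mem_centralizer_iff.2 fun b hb => hA1c b hb a ha
    obtain ⟨y, hy, hyC, hyA⟩ := exists_mem_layer hT hle (fun h => hne (le_of_eq h.symm))
    obtain ⟨h1, h2, h3, h4⟩ := layer_inf_centralizer hT hC hA1g le_rfl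
    refine hyA (h4 y ⟨hy, hyC⟩ ?_)
    have h5 := pow_four_eq_one hT hC h1 h2 h3 ⟨hy, hyC⟩
    rw [← pow_two, ← pow_mul]
    simpa using h5
  have hAA1 : A ≤ A1 := fun a ha => hsc (Subgroup.mem_centralizer_iff.2 fun b hb =>
    (Subgroup.mem_centralizer_iff.1 hb.2 a ha).symm)
  have hAc : ∀ a ∈ A, ∀ b ∈ A, a * b = b * a := fun a ha b hb =>
    hA1c a (hAA1 ha) b (hAA1 hb)
  have hCA : ∀ p, (∀ a ∈ A, p * a = a * p) → p ∈ A := fun p h =>
    (hsc (Subgroup.mem_centralizer_iff.2 fun b hb => (h b hb.1).symm)).1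
  -- squaring identifies `A` modulo `Z` with `F`
  have hsmul : ∀ a ∈ A, ∀ b ∈ A, sqc η (a * b) = sqc η a + sqc η b := fun a ha b hb => by
    rw [sqc_mul hT hC ha hb, commutatorElement_eq_one_iff_mul_comm.2 (hAc b hb a ha),
      hC.lg_one, add_zero]
  have hsinv : ∀ a ∈ A, sqc η a⁻¹ = sqc η a := fun a ha => by
    have h := hsmul a ha _ (A.inv_mem ha)
    rw [mul_inv_cancel, sqc_center hT hC (Subgroup.one_mem _)] at h
    exact (CharTwo.add_eq_zero.1 h.symm).symm
  have hssurj : Function.Surjective (fun a : A => sqc η (a : P)) := by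
    exact hC.surjective_of_equivariant hT _
      (fun k a => ⟨⟨_, hAinv k _ a.2⟩, sqc_map hT hC k a.2⟩)
      ⟨1, sqc_center hT hC (Subgroup.one_mem _)⟩
      ⟨⟨c₀, hc₀.1⟩, fun h => hc₀Z (sqc_eq_zero hT hC hc₀.1 h)⟩
  choose sec hsec using hssurj
  replace hsec : ∀ w, sqc η (sec w : P) = w := hsec
  set ψ := cmap η (fun w => (sec w : P)) with hψdef
  have hψ : ∀ (p : P), ∀ a ∈ A, lg η ⁅p, a⁆ = ψ p (sqc η a) := by
    intro p a ha
    show _ = lg η _
    have hb := (sec (sqc η a)).2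
    have hd : sqc η ((sec (sqc η a) : P)⁻¹ * a) = 0 := by
      rw [hsmul _ (A.inv_mem hb) _ ha, hsinv _ hb, hsec, CharTwo.add_self_eq_zero]
    have hdA : (sec (sqc η a) : P)⁻¹ * a ∈ A := A.mul_mem (A.inv_mem hb) ha
    have hdZ := sqc_eq_zero hT hC hdA hd
    calc lg η ⁅p, a⁆ = lg η ⁅p, (sec (sqc η a) : P) * ((sec (sqc η a) : P)⁻¹ * a)⁆ := by
          rw [mul_inv_cancel_left]
      _ = _ := by
          rw [lg_commutator_mul_right hT hC hb hdA,
            commutatorElement_eq_one_iff_mul_comm.2 (Subgroup.mem_center_iff.1 hdZ p),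
            hC.lg_one, add_zero]
  have hψw : ∀ p v w, ψ p (v + w) = ψ p v + ψ p w := by
    intro p v w
    have e : sqc η ((sec v : P) * sec w) = v + w := by
      rw [hsmul _ (sec v).2 _ (sec w).2, hsec, hsec]
    rw [← e, ← hψ p _ (A.mul_mem (sec v).2 (sec w).2),
      lg_commutator_mul_right hT hC (sec v).2 (sec w).2]
    rfl
  have hψw0 : ∀ p, ψ p 0 = 0 := fun p => by simpa using hψw p 0 0
  have hψp : ∀ p p' w, ψ (p * p') w = ψ p w + ψ p' w := fun p p' w => hcl p p' _ (sec w).2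
  have hψinv : ∀ p w, ψ p⁻¹ w = ψ p w := fun p w => hcinv p _ (sec w).2
  have hψA : ∀ p, p ∈ A ↔ ∀ w, ψ p w = 0 := by
    refine fun p => ⟨fun hp w => ?_, fun h => hCA p fun a ha =>
      hcz p a ha (by rw [hψ p a ha]; exact h _)⟩
    show lg η _ = 0
    rw [commutatorElement_eq_one_iff_mul_comm.2 (hAc p hp _ (sec w).2), hC.lg_one]
  have hψk : ∀ (k : K) p w, ψ ((k : MulAut P) p) (sl η k w) = sl η k (ψ p w) := by
    intro k p w
    have e : sqc η ((k : MulAut P) (sec w)) = sl η k w := by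
      rw [sqc_map hT hC k (sec w).2, hsec]
    rw [← e, ← hψ _ _ (hAinv k _ (sec w).2), ← map_commutator',
      hC.lg_map _ (layer_comm_sq hT hC (sec w).2)]
    rfl
  have hsqA : ∀ p : P, p * p ∈ A := fun p => (hψA _).2 fun w => by
    rw [hψp, CharTwo.add_self_eq_zero]
  have hcomA : ∀ p r : P, ⁅p, r⁆ ∈ A := fun p r => (hψA _).2 fun w => by
    rw [commutatorElement_def, hψp, hψp, hψp, hψinv, hψinv]
    have h1 := CharTwo.add_self_eq_zero (ψ p w)
    have h2 := CharTwo.add_self_eq_zero (ψ r w)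
    linear_combination h1 + h2
  have hself : ∀ p, ψ p (sqc η (p * p)) = 0 := fun p => by
    rw [← hψ p _ (hsqA p), commutatorElement_eq_one_iff_mul_comm.2 (mul_assoc p p p).symm,
      hC.lg_one]
  -- the components of the maps `ψ p`
  let M : Set (F → F) := Set.range ψ
  have hM0 : (fun _ => 0) ∈ M := ⟨1, funext fun w => (hψA 1).1 A.one_mem w⟩
  have hMadd : ∀ f ∈ M, ∀ g ∈ M, (fun w => f w + g w) ∈ M := by
    rintro f ⟨p, rfl⟩ g ⟨r, rfl⟩
    exact ⟨p * r, funext fun w => hψp p r w⟩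
  have hMconj : ∀ c : F, c ≠ 0 → ∀ f ∈ M, (fun w => c ^ d * f (w / c ^ d)) ∈ M := by
    rintro c hc f ⟨p, rfl⟩
    obtain ⟨k, hk⟩ := hC.sl_scal hc
    refine ⟨(k : MulAut P) p, funext fun w => ?_⟩
    show _ = c ^ d * ψ p (w / c ^ d)
    rw [← hk, ← hψk, hk, mul_div_cancel₀ _ (pow_ne_zero _ hc)]
  have hpure_sq : ∀ (σ : F ≃+* F) (a : F) (p : P), a ≠ 0 → (∀ w, ψ p w = a * σ w) →
      p * p ∈ Z := by
    intro σ a p ha hp
    refine sqc_eq_zero hT hC (hsqA p) ?_
    have h := hself p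
    rw [hp] at h
    simpa [ha] using h
  have hlgsq : ∀ (σ : F ≃+* F) (a : F) (p : P), a ≠ 0 → (∀ w, ψ p w = a * σ w) → ∀ b ∈ A,
      lg η ((p * b) * (p * b)) = sqc η p + (a * σ (sqc η b) + sqc η b) ∧
        p * b * (p * b) * (p * b * (p * b)) = 1 := by
    intro σ a p ha hp b hb
    have hpZ := hpure_sq σ a p ha hp
    have h1 := (mem_layer.1 hb).2 p⁻¹
    have h2 := (mem_layer.1 hb).1
    have e : p * b * (p * b) = (p * p) * (⁅p⁻¹, b⁆ * (b * b)) := by
      simp only [commutatorElement_def]; group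
    refine ⟨?_, ?_⟩
    · rw [e, hC.lg_mul (center_sq_eq_one hT hC hpZ)
          (center_sq_eq_one hT hC (Subgroup.mul_mem _ h1 h2)),
        hC.lg_mul (center_sq_eq_one hT hC h1) (center_sq_eq_one hT hC h2), hψ _ b hb, hψinv, hp]
      rfl
    · refine center_sq_eq_one hT hC ?_
      rw [e]
      exact Subgroup.mul_mem _ hpZ (Subgroup.mul_mem _ h1 h2)
  have hpnA : ∀ (σ : F ≃+* F) (a : F) (p : P), a ≠ 0 → (∀ w, ψ p w = a * σ w) → p ∉ A := by
    intro σ a p ha hp h
    exact ha (by have := (hψA p).1 h 1; rwa [hp, map_one, mul_one] at this)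
  -- a coefficient is a quotient `v / σ v`
  have hpure_eq : ∀ (σ : F ≃+* F) (a : F) (p : P), a ≠ 0 → (∀ w, ψ p w = a * σ w) →
      ∃ v, v ≠ 0 ∧ a = v / σ v := by
    intro σ a p ha hp
    by_contra hcon
    push Not at hcon
    have hinj : Function.Injective fun v => a * σ v + v := by
      intro v w h
      by_contra hvw
      have hsum : v + w ≠ 0 := fun h0 => hvw (CharTwo.add_eq_zero.1 h0)
      refine hcon _ hsum ?_
      rw [eq_div_iff ((map_ne_zero σ).2 hsum), ← CharTwo.add_eq_zero]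
      rw [← CharTwo.add_eq_zero] at h
      rw [map_add, ← h]
      ring
    obtain ⟨v, hv⟩ := Finite.surjective_of_injective hinj (sqc η p)
    have hbA : (sec v : P) ∈ A := (sec v).2
    obtain ⟨h3, h5⟩ := hlgsq σ a p ha hp _ hbA
    rw [hsec, show a * σ v + v = sqc η p from hv, CharTwo.add_self_eq_zero] at h3
    have h6 := A.mul_mem (hZA (hT.involution_central (hC.eq_one_of_lg h5 h3))) (A.inv_mem hbA)
    rw [mul_inv_cancel_right] at h6
    exact hpnA σ a p ha hp h6
  have hpure_ne : ∀ (σ : F ≃+* F) (a : F) (p : P), a ≠ 0 → (∀ w, ψ p w = a * σ w) →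
      σ ≠ RingEquiv.refl F := by
    intro σ a p ha hp hσ
    subst hσ
    obtain ⟨v, hv, hav⟩ := hpure_eq _ a p ha hp
    rw [RingEquiv.refl_apply, div_self hv] at hav
    subst hav
    have hpZ := hpure_sq (RingEquiv.refl F) 1 p ha hp
    obtain ⟨c, hc, hc1⟩ := hC.exists_scalar_ne_one
    obtain ⟨k, hk⟩ := hC.sl_scal hc
    have hkp : p⁻¹ * (k : MulAut P) p ∈ A := (hψA _).2 fun w => by
      have h2 := hψk k p (w / c ^ d)
      simp only [hk, hp, RingEquiv.refl_apply, one_mul,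
        mul_div_cancel₀ _ (pow_ne_zero d hc)] at h2
      rw [hψp, hψinv, hp, h2, RingEquiv.refl_apply, one_mul, CharTwo.add_self_eq_zero]
    have h3 := (hlgsq _ 1 p ha hp _ hkp).1
    rw [mul_inv_cancel_left, RingEquiv.refl_apply, one_mul, CharTwo.add_self_eq_zero, add_zero,
      ← map_mul, hC.lg_map _ (center_sq_eq_one hT hC hpZ), hk] at h3
    have h4 : sqc η p = 0 := by
      by_contra hne
      exact hc1 (mul_eq_right₀ hne |>.1 h3)
    exact hpnA _ 1 p ha hp
      (hZA (hT.involution_central (hC.eq_one_of_lg (center_sq_eq_one hT hC hpZ) h4)))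
  have hrealise : ∀ (σ : F ≃+* F) (a : F) (p : P), a ≠ 0 → (∀ w, ψ p w = a * σ w) →
      ∀ b : F, ∃ r, ∀ w, ψ r w = b * σ w := by
    intro σ a p ha hp b
    let T : AddSubgroup F :=
      { carrier := {x | ∃ r, ∀ w, ψ r w = x * σ w}
        zero_mem' := ⟨1, fun w => by rw [zero_mul]; exact (hψA 1).1 A.one_mem w⟩
        add_mem' := by
          rintro x y ⟨r, hr⟩ ⟨t, ht⟩
          exact ⟨r * t, fun w => by rw [hψp, hr, ht]; ring⟩
        neg_mem' := by
          rintro x ⟨r, hr⟩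
          exact ⟨r, fun w => by rw [CharTwo.neg_eq]; exact hr w⟩ }
    have hTmul : ∀ c : F, c ≠ 0 → ∀ y ∈ T, c ^ d / σ (c ^ d) * y ∈ T := by
      rintro c hc y ⟨r, hr⟩
      obtain ⟨t, ht⟩ := hMconj c hc (ψ r) ⟨r, rfl⟩
      refine ⟨t, fun w => ?_⟩
      rw [ht]
      show c ^ d * ψ r (w / c ^ d) = _
      rw [hr, map_div₀]
      ring
    rcases closure_div_eq_top_or hC.param hC.card (hpure_ne σ a p ha hp) with
      htop | ⟨rfl, rfl, s, hs, hσ⟩
    · let T' : AddSubgroup F := T.comap (AddMonoidHom.mulRight a)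
      have hle : AddSubgroup.closure (Set.range fun c : F => c ^ d / σ (c ^ d)) ≤ T' := by
        rw [AddSubgroup.closure_le]
        rintro _ ⟨c, rfl⟩
        show c ^ d / σ (c ^ d) * a ∈ T
        by_cases hc : c = 0
        · simp only [hc, zero_pow hC.param.odd.pos.ne', zero_div, zero_mul]
          exact T.zero_mem
        exact hTmul c hc a ⟨p, hp⟩
      rw [htop] at hle
      obtain ⟨r, hr⟩ := (show b / a * a ∈ T from hle (AddSubgroup.mem_top (b / a)))
      exact ⟨r, fun w => by rw [hr, div_mul_cancel₀ _ ha]⟩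
    · refine (exceptional_false hC.card hs hσ T hTmul ?_ (fun y ⟨r, hr⟩ hy => hpure_eq σ y r hy hr)
        (a := a) ⟨p, hp⟩ ha).elim
      rintro l hl y ⟨r, hr⟩
      obtain ⟨k, hk⟩ := hC.sl_trans hT (one_ne_zero (α := F)) hl
      obtain ⟨a', φ, hφ⟩ := hC.semilin k
      have hsl : ∀ v, sl η k v = a' * φ v := fun v => hC.inj (by rw [← hC.equiv, hφ])
      rw [hsl, map_one, mul_one] at hk
      subst hk
      refine ⟨φ, (k : MulAut P) r, fun w => ?_⟩
      have h := hψk k r (φ.symm (w / a'))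
      rw [hsl, RingEquiv.apply_symm_apply, mul_div_cancel₀ _ hl, hr, hsl, map_mul,
        aut_comm (by norm_num) hC.card φ σ, RingEquiv.apply_symm_apply, map_div₀] at h
      rw [h]
      ring
  -- the squares of products
  have hsq_mul : ∀ p r : P, p * p ∈ Z →
      (p * r) * (p * r) = ⁅p, r⁆ * ((r * r) * (p * p)) := by
    intro p r hp
    have e : r * (p * p) * r = (r * r) * (p * p) := by
      rw [mul_assoc r (p * p) r, ← Subgroup.mem_center_iff.1 hp r, mul_assoc]
    rw [← e, commutatorElement_def]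
    group
  let Pure : (F ≃+* F) → P → Prop := fun σ p => ∃ a, a ≠ 0 ∧ ∀ w, ψ p w = a * σ w
  have hpair_ne : ∀ (σ τ : F ≃+* F) (p r : P), Pure σ p → Pure τ r → ⁅p, r⁆ ∉ Z →
      ∀ x, σ x = τ x * τ x := by
    rintro σ τ p r ⟨a, ha, hpp⟩ ⟨b₀, hb₀, hr⟩ hne
    have hpZ := hpure_sq σ a p ha hpp
    choose u hu using hrealise τ b₀ r hb₀ hr
    have huZ : ∀ b, u b * u b ∈ A := fun b => hsqA _
    let f : F → F := fun b => sqc η ⁅p, u b⁆
    have hdep : ∀ b r', (∀ w, ψ r' w = b * τ w) → sqc η ⁅p, r'⁆ = f b := by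
      intro b r' hr'
      have he : (u b)⁻¹ * r' ∈ A := (hψA _).2 fun w => by
        rw [hψp, hψinv, hu, hr', CharTwo.add_self_eq_zero]
      have e : ⁅p, r'⁆ = ⁅p, u b⁆ * (u b * ⁅p, (u b)⁻¹ * r'⁆ * (u b)⁻¹) := by
        simp only [commutatorElement_def]; group
      have hz := (mem_layer.1 he).2 p
      rw [e, Subgroup.mem_center_iff.1 hz (u b), mul_inv_cancel_right,
        hsmul _ (hcomA _ _) _ (hZA hz), sqc_center hT hC hz, add_zero]
    have hconj : ∀ (g : P), ∀ c ∈ A, sqc η (g * c * g⁻¹) = sqc η c := by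
      intro g c hc
      have e : g * c * g⁻¹ = ⁅g, c⁆ * c := by simp only [commutatorElement_def]; group
      have hz := (mem_layer.1 hc).2 g
      rw [e, hsmul _ (hZA hz) _ hc, sqc_center hT hC hz, zero_add]
    have hfadd : ∀ b b', f (b + b') = f b + f b' := by
      intro b b'
      rw [← hdep (b + b') (u b * u b') (fun w => by rw [hψp, hu, hu]; ring)]
      have e : ⁅p, u b * u b'⁆ = ⁅p, u b⁆ * (u b * ⁅p, u b'⁆ * (u b)⁻¹) := by
        simp only [commutatorElement_def]; group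
      rw [e, hsmul _ (hcomA _ _) _ (hAn.conj_mem _ (hcomA _ _) _), hconj _ _ (hcomA _ _)]
    have hid : ∀ b, a * σ (f b) + b * τ (f b) = 0 := by
      intro b
      have h := hself (p * u b)
      have hu2 : sqc η (u b * u b) = 0 := by
        by_cases hb : b = 0
        · have : u b ∈ A := (hψA _).2 fun w => by rw [hu, hb, zero_mul]
          exact sqc_center hT hC (mem_layer.1 this).1
        · exact sqc_center hT hC (hpure_sq τ b (u b) hb (hu b))
      rw [hsq_mul p (u b) hpZ, hsmul _ (hcomA _ _) _ (A.mul_mem (huZ b) (hZA hpZ)),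
        hsmul _ (huZ b) _ (hZA hpZ), hu2, sqc_center hT hC hpZ, add_zero, add_zero, hψp, hpp,
        hu] at h
      exact h
    have hb₁ : f b₀ ≠ 0 := fun h => hne (sqc_eq_zero hT hC (hcomA p r) ((hdep b₀ r hr).trans h))
    have hsame : ∀ b b', f b = f b' → f b ≠ 0 → b = b' := by
      intro b b' e hx
      have h1 := hid b
      have h2 := hid b'
      rw [← e] at h2
      refine mul_right_cancel₀ (b := τ (f b)) (by simpa using hx) ?_
      linear_combination h1 - h2
    have hinj : Function.Injective f := by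
      intro b b' e
      by_cases hx : f b = 0
      · have hd : f (b + b') = 0 := by rw [hfadd, e, CharTwo.add_self_eq_zero]
        have h2 : f (b₀ + (b + b')) = f b₀ := by rw [hfadd, hd, add_zero]
        have := hsame _ _ h2.symm hb₁
        exact CharTwo.add_eq_zero.1 (left_eq_add.1 this)
      · exact hsame b b' e hx
    have hsurj : Function.Surjective f := Finite.surjective_of_injective hinj
    have hf0 : f 0 = 0 := by simpa using hfadd 0 0
    have hval : ∀ b, b = a * (σ (f b) / τ (f b)) := by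
      intro b
      by_cases hb : f b = 0
      · rw [hb, map_zero, zero_div, mul_zero]
        exact hinj (hb.trans hf0.symm)
      · have h := hid b
        rw [CharTwo.add_eq_zero] at h
        rw [← mul_div_assoc, h, mul_div_cancel_right₀ _ (by simpa using hb)]
    refine eq_sq_of_div_additive σ τ (fun x y => mul_left_cancel₀ ha ?_)
    obtain ⟨b, rfl⟩ := hsurj x
    obtain ⟨b', rfl⟩ := hsurj y
    rw [mul_add, ← hfadd, ← hval, ← hval, ← hval]
  have hpair : ∀ (σ τ : F ≃+* F) (p r : P), Pure σ p → Pure τ r → ⁅r, p⁆ ∈ Z := by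
    intro σ τ p r hp hr
    by_contra hne
    have hne' : ⁅p, r⁆ ∉ Z := fun h => hne (by
      rw [← commutatorElement_inv p r]; exact Subgroup.inv_mem _ h)
    have h1 := hpair_ne σ τ p r hp hr hne'
    have h2 := hpair_ne τ σ r p hr hp hne
    obtain ⟨a, ha, hpp⟩ := hp
    obtain ⟨b, hb, hrr⟩ := hr
    have hστ : σ ≠ τ := by
      rintro rfl
      apply hne'
      have hprZ : (p * r) * (p * r) ∈ Z := by
        by_cases hab : a + b = 0
        · exact (mem_layer.1 ((hψA (p * r)).2 fun w => by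
            rw [hψp, hpp, hrr, ← add_mul, hab, zero_mul])).1
        · exact hpure_sq σ (a + b) (p * r) hab (fun w => by rw [hψp, hpp, hrr]; ring)
      rw [hsq_mul p r (hpure_sq σ a p ha hpp)] at hprZ
      exact (Subgroup.mul_mem_cancel_right _ (Subgroup.mul_mem _ (hpure_sq σ b r hb hrr)
        (hpure_sq σ a p ha hpp))).1 hprZ
    have h4 : ∀ x : F, x * x * (x * x) = x := by
      intro x
      obtain ⟨y, rfl⟩ := σ.surjective x
      conv_rhs => rw [h1 y, h2 y]
    refine hστ (RingEquiv.ext fun x => ?_)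
    rw [eq_sq_of_pow_four h4 (hpure_ne σ a p ha hpp) x,
      eq_sq_of_pow_four h4 (hpure_ne τ b r hb hrr) x]
  -- every element is a product of pure ones
  have hdec : ∀ p : P, ∃ (s : Finset (F ≃+* F)) (c : (F ≃+* F) → F),
      (∀ w, ψ p w = ∑ σ ∈ s, c σ * σ w) ∧
        ∀ σ ∈ s, ∃ r, ∀ w, ψ r w = c σ * σ w := by
    intro p
    obtain ⟨s, c, hc⟩ := CfsgLib.FieldAut.exists_sum_addHom (AddMonoidHom.mk' (ψ p) (hψw p))
    refine ⟨s, c, hc, fun σ hσ => ?_⟩
    obtain ⟨r, hr⟩ := component_mem hC.param hC.card M hM0 hMadd hMconj s c ⟨p, funext hc⟩ hσ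
    exact ⟨r, fun w => congrFun hr w⟩
  obtain ⟨σ₀, p₀, hp₀⟩ : ∃ σ p, Pure σ p := by
    obtain ⟨p, hp⟩ : ∃ p, p ∉ A := by
      by_contra h
      push Not at h
      exact htop (eq_top_iff.2 fun x _ => h x)
    obtain ⟨s, c, hc, hcr⟩ := hdec p
    by_contra hcon
    push Not at hcon
    refine hp ((hψA p).2 fun w => ?_)
    rw [hc]
    refine Finset.sum_eq_zero fun σ hσ => ?_
    obtain ⟨r, hr⟩ := hcr σ hσ
    by_cases h0 : c σ = 0
    · rw [h0, zero_mul]
    · exact absurd ⟨c σ, h0, hr⟩ (hcon σ r)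
  let G : Subgroup P :=
    { carrier := {r | ⁅r, p₀⁆ ∈ Z}
      one_mem' := by simp
      mul_mem' := fun {r t} hr ht => by
        show ⁅r * t, p₀⁆ ∈ Z
        rw [commutator_left_center ht]
        exact Subgroup.mul_mem _ hr ht
      inv_mem' := fun {r} hr => by
        show ⁅r⁻¹, p₀⁆ ∈ Z
        have e : ⁅r⁻¹, p₀⁆ = r⁻¹ * ⁅r, p₀⁆⁻¹ * r⁻¹⁻¹ := by
          simp only [commutatorElement_def]; group
        rw [e]
        exact (inferInstance : Z.Normal).conj_mem _ (Subgroup.inv_mem _ hr) _ }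
  have hAG : A ≤ G := fun a ha => by
    show ⁅a, p₀⁆ ∈ Z
    rw [← commutatorElement_inv p₀ a]
    exact Subgroup.inv_mem _ ((mem_layer.1 ha).2 p₀)
  have hG : ∀ p, p ∈ G := by
    intro p
    obtain ⟨s, c, hc, hcr⟩ := hdec p
    have hgen : ∀ t : Finset (F ≃+* F), t ⊆ s → ∃ g ∈ G, ∀ w, ψ g w = ∑ σ ∈ t, c σ * σ w := by
      intro t
      induction t using Finset.induction with
      | empty => exact fun _ => ⟨1, G.one_mem, fun w => by simpa using (hψA 1).1 A.one_mem w⟩
      | insert σ t hσ ih =>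
        intro hts
        obtain ⟨g, hg, hge⟩ := ih ((Finset.subset_insert σ t).trans hts)
        obtain ⟨r, hr⟩ := hcr σ (hts (Finset.mem_insert_self σ t))
        refine ⟨r * g, G.mul_mem ?_ hg, fun w => by
          rw [hψp, hr, hge, Finset.sum_insert hσ]⟩
        by_cases h0 : c σ = 0
        · exact hAG ((hψA r).2 fun w => by rw [hr, h0, zero_mul])
        · exact hpair σ₀ σ p₀ r hp₀ ⟨c σ, h0, hr⟩
    obtain ⟨g, hg, hge⟩ := hgen s (Finset.Subset.refl _)
    have h := hAG ((hψA (p * g⁻¹)).2 fun w => by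
      rw [hψp, hψinv, hc, hge, CharTwo.add_self_eq_zero])
    have := G.mul_mem h hg
    rwa [inv_mul_cancel_right] at this
  obtain ⟨a, ha, hpp⟩ := hp₀
  have hpA : p₀ ∈ A := mem_layer.2 ⟨hpure_sq σ₀ a p₀ ha hpp, fun r => hG r⟩
  have h := (hψA p₀).1 hpA 1
  rw [hpp, map_one, mul_one] at h
  exact ha h

end CfsgLib.SuzukiTrans
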