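import Mathlib.Data.Nat.ModEq
import Mathlib.Algebra.Ring.Parity
import Mathlib.Tactic.Ring
import Mathlib.Tactic.NormNum
import Mathlib.Data.Fintype.Pigeonhole
import Mathlib.Tactic.FinCases
import Mathlib.Data.Fin.VecNotation

/-!
Sums of two powers of two modulo `(2 ^ n - 1) / d` for an odd `d` dividing `n`.
-/

set_option autoImplicit false

set_option synthInstance.maxSize 2000

namespace CfsgLib.SuzukiTrans

theorem two_pow_mod_eq (n x : ℕ) : 2 ^ x ≡ 2 ^ (x % n) [MOD 2 ^ n - 1] := by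
  have h1 : 2 ^ n ≡ 1 [MOD 2 ^ n - 1] :=
    ((Nat.modEq_iff_dvd' (Nat.one_le_two_pow)).2 dvd_rfl).symm
  calc 2 ^ x = (2 ^ n) ^ (x / n) * 2 ^ (x % n) := by
        rw [← pow_mul, ← pow_add, Nat.div_add_mod]
    _ ≡ 1 ^ (x / n) * 2 ^ (x % n) [MOD 2 ^ n - 1] := (h1.pow _).mul_right _
    _ = _ := by rw [one_pow, one_mul]

/-- Of four points on a cycle of length `n` one is followed by a gap. -/
theorem exists_gap {n g a b c e : ℕ} (hg : 4 * (g - 1) < n) (ha : a < n) (hb : b < n)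
    (hc : c < n) (he : e < n) :
    ∃ p < n, (a + n - p) % n ≤ n - g ∧ (b + n - p) % n ≤ n - g ∧ (c + n - p) % n ≤ n - g ∧
      (e + n - p) % n ≤ n - g := by
  classical
  by_contra hcon
  let Q : Fin 4 → ℕ := ![a, b, c, e]
  have hQ : ∀ i, Q i < n := by
    intro i
    fin_cases i <;> assumption
  have hbad : ∀ i : Fin 4, ∃ (i' : Fin 4) (δ : ℕ),
      1 ≤ δ ∧ δ ≤ g - 1 ∧ (Q i' + δ) % n = Q i := by
    intro i
    obtain ⟨i', hi'⟩ : ∃ i', n - g < (Q i' + n - Q i) % n := by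
      by_contra h
      exact hcon ⟨Q i, hQ i, not_lt.1 fun h0 => h ⟨0, h0⟩, not_lt.1 fun h0 => h ⟨1, h0⟩,
        not_lt.1 fun h0 => h ⟨2, h0⟩, not_lt.1 fun h0 => h ⟨3, h0⟩⟩
    have h1 := hQ i
    have h2 := hQ i'
    refine ⟨i', n - (Q i' + n - Q i) % n, ?_, ?_, ?_⟩
    · have := Nat.mod_lt (Q i' + n - Q i) (show n > 0 by omega)
      omega
    · omega
    · by_cases hle : Q i ≤ Q i'
      · rw [show Q i' + n - Q i = Q i' - Q i + n by omega, Nat.add_mod_right,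
          Nat.mod_eq_of_lt (show Q i' - Q i < n by omega),
          show Q i' + (n - (Q i' - Q i)) = Q i + n by omega, Nat.add_mod_right,
          Nat.mod_eq_of_lt h1]
      · rw [Nat.mod_eq_of_lt (show Q i' + n - Q i < n by omega),
          show Q i' + (n - (Q i' + n - Q i)) = Q i by omega, Nat.mod_eq_of_lt h1]
  choose f δ hδ1 hδ2 hδ using hbad
  have hiter : ∀ (k : ℕ) (i : Fin 4), ∃ S, k ≤ S ∧ S ≤ k * (g - 1) ∧
      (Q (f^[k] i) + S) % n = Q i := by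
    intro k
    induction k with
    | zero => exact fun i => ⟨0, le_rfl, by simp, by simp [Nat.mod_eq_of_lt (hQ i)]⟩
    | succ k ih =>
      intro i
      obtain ⟨S, hS1, hS2, hS⟩ := ih (f i)
      refine ⟨S + δ i, by have := hδ1 i; omega, by have := hδ2 i; rw [Nat.succ_mul]; omega, ?_⟩
      rw [Function.iterate_succ_apply, ← hδ i, ← hS, Nat.mod_add_mod, add_assoc]
  obtain ⟨j, l, hjl, hjle⟩ := Fintype.exists_ne_map_eq_of_card_lt
    (fun j : Fin 5 => f^[(j : ℕ)] 0) (by simp)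
  obtain ⟨j, l, hlt, hl, hjle⟩ : ∃ j l : ℕ, j < l ∧ l ≤ 4 ∧ f^[j] 0 = f^[l] 0 := by
    rcases Nat.lt_or_gt_of_ne (fun h => hjl (Fin.ext h)) with h | h
    · exact ⟨j, l, h, by omega, hjle⟩
    · exact ⟨l, j, h, by omega, hjle.symm⟩
  obtain ⟨S, hS1, hS2, hS⟩ := hiter (l - j) (f^[j] 0)
  rw [← Function.iterate_add_apply, Nat.sub_add_cancel hlt.le, ← hjle] at hS
  have hS3 : S ≤ 4 * (g - 1) := hS2.trans (Nat.mul_le_mul_right _ (by omega))
  have hlt' := hQ (f^[j] 0)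
  by_cases h : Q (f^[j] 0) + S < n
  · rw [Nat.mod_eq_of_lt h] at hS
    omega
  · rw [Nat.mod_eq_sub_mod (by omega), Nat.mod_eq_of_lt (by omega)] at hS
    omega

theorem pair_eq_of_add_eq {a b c e : ℕ} (h : 2 ^ a + 2 ^ b = 2 ^ c + 2 ^ e) :
    (a = c ∧ b = e) ∨ (a = e ∧ b = c) := by
  suffices H : ∀ a b c e : ℕ, a ≤ b → c ≤ e → 2 ^ a + 2 ^ b = 2 ^ c + 2 ^ e → a = c ∧ b = e by
    rcases Nat.le_total a b with h1 | h1 <;> rcases Nat.le_total c e with h2 | h2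
    · exact Or.inl (H a b c e h1 h2 h)
    · exact Or.inr (H a b e c h1 h2 (by rw [h, add_comm]))
    · obtain ⟨e1, e2⟩ := H b a c e h1 h2 (by rw [add_comm, h])
      exact Or.inr ⟨e2, e1⟩
    · obtain ⟨e1, e2⟩ := H b a e c h1 h2 (by rw [add_comm, h, add_comm])
      exact Or.inl ⟨e2, e1⟩
  intro a b c e hab hce h
  have hpos : ∀ x : ℕ, 0 < 2 ^ x := fun x => Nat.two_pow_pos x
  have hmono : ∀ x y : ℕ, x ≤ y → 2 ^ x ≤ 2 ^ y := fun x y hxy =>
    Nat.pow_le_pow_right (by norm_num) hxy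
  have hsucc : ∀ x : ℕ, 2 ^ (x + 1) = 2 * 2 ^ x := fun x => pow_succ' 2 x
  by_cases hbe : b = e
  · subst hbe
    exact ⟨Nat.pow_right_injective le_rfl (by simpa using h), rfl⟩
  rcases Nat.lt_or_gt_of_ne hbe with hlt | hlt
  · have := hmono a b hab
    have := hmono (b + 1) e hlt
    have := hsucc b
    have := hpos c
    omega
  · have := hmono c e hce
    have := hmono (e + 1) b hlt
    have := hsucc e
    have := hpos a
    omega

theorem le_two_pow_gap {n : ℕ} (h : 24 ≤ n) : 2 * n < 2 ^ ((n + 3) / 4) := by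
  induction n using Nat.strong_induction_on with
  | _ n ih =>
    by_cases hn : n < 28
    · have h6 : 6 ≤ (n + 3) / 4 := by omega
      have := Nat.pow_le_pow_right (show 1 ≤ 2 by norm_num) h6
      omega
    · have h1 := ih (n - 4) (by omega) (by omega)
      rw [show (n + 3) / 4 = (n - 4 + 3) / 4 + 1 by omega, pow_succ]
      omega

/-- The gap is long enough, up to small cases. -/
theorem gap_cases {n d : ℕ} (hn : 2 ≤ n) (hd : d ∣ n) (hodd : Odd d) (hd2 : d ∣ 2 ^ n - 1) :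
    2 * d < 2 ^ ((n + 3) / 4) ∨ (n ≤ 4 ∧ d = 1) ∨ (n = 6 ∧ d = 3) := by
  by_cases h24 : 24 ≤ n
  · exact Or.inl (lt_of_le_of_lt (Nat.mul_le_mul_left 2 (Nat.le_of_dvd (by omega) hd))
      (le_two_pow_gap h24))
  · have key : ∀ n < 24, ∀ d < 24, 2 ≤ n → n % d = 0 → d % 2 = 1 → (2 ^ n - 1) % d = 0 →
        2 * d < 2 ^ ((n + 3) / 4) ∨ (n ≤ 4 ∧ d = 1) ∨ (n = 6 ∧ d = 3) := by decide +kernel
    exact key n (by omega) d (lt_of_le_of_lt (Nat.le_of_dvd (by omega) hd) (by omega)) hn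
      (Nat.mod_eq_zero_of_dvd hd) (Nat.odd_iff.1 hodd) (Nat.mod_eq_zero_of_dvd hd2)

variable {n d : ℕ}

/-- Two sums of two powers of two agree modulo `(2 ^ n - 1) / d` only trivially. -/
theorem pair_arith (hn : 2 ≤ n) (hd : d ∣ n) (hodd : Odd d) (hd2 : d ∣ 2 ^ n - 1) {a b c e : ℕ}
    (ha : a < n) (hb : b < n) (hc : c < n) (he : e < n)
    (h : d * (2 ^ a + 2 ^ b) ≡ d * (2 ^ c + 2 ^ e) [MOD 2 ^ n - 1]) :
    (a = c ∧ b = e) ∨ (a = e ∧ b = c) ∨ (n = 6 ∧ d = 3) := by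
  rcases gap_cases hn hd hodd hd2 with hg | ⟨hn4, rfl⟩ | hex
  · set g := (n + 3) / 4 with hgdef
    obtain ⟨p, hp, h1, h2, h3, h4⟩ := exists_gap (g := g) (by omega) ha hb hc he
    have hshift : ∀ x < n, 2 ^ x * 2 ^ (n - p) ≡ 2 ^ ((x + n - p) % n) [MOD 2 ^ n - 1] := by
      intro x hx
      rw [← pow_add, show x + (n - p) = x + n - p by omega]
      exact two_pow_mod_eq n _
    have h' : d * (2 ^ ((a + n - p) % n) + 2 ^ ((b + n - p) % n)) ≡
        d * (2 ^ ((c + n - p) % n) + 2 ^ ((e + n - p) % n)) [MOD 2 ^ n - 1] := by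
      refine ((((hshift a ha).add (hshift b hb)).mul_left d).symm.trans ?_).trans
        (((hshift c hc).add (hshift e he)).mul_left d)
      have := h.mul_right (2 ^ (n - p))
      simpa only [mul_assoc, add_mul] using this
    have hbound : ∀ x y, x ≤ n - g → y ≤ n - g → d * (2 ^ x + 2 ^ y) < 2 ^ n - 1 := by
      intro x y hx hy
      have e1 := Nat.pow_le_pow_right (show 1 ≤ 2 by norm_num) hx
      have e2 := Nat.pow_le_pow_right (show 1 ≤ 2 by norm_num) hy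
      have e3 : 2 ^ n = 2 ^ g * 2 ^ (n - g) := by rw [← pow_add]; congr 1; omega
      have e4 : d * (2 ^ x + 2 ^ y) ≤ 2 * d * 2 ^ (n - g) := by
        calc d * (2 ^ x + 2 ^ y) ≤ d * (2 * 2 ^ (n - g)) := Nat.mul_le_mul_left d (by omega)
          _ = _ := by ring
      have e5 : (2 * d + 1) * 2 ^ (n - g) ≤ 2 ^ g * 2 ^ (n - g) := Nat.mul_le_mul_right _ hg
      have e6 : 2 ≤ 2 ^ (n - g) := by
        calc 2 = 2 ^ 1 := rfl
          _ ≤ _ := Nat.pow_le_pow_right (by norm_num) (by omega)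
      rw [add_mul, one_mul] at e5
      omega
    have heq := Nat.eq_of_mul_eq_mul_left hodd.pos
      (h'.eq_of_lt_of_lt (hbound _ _ h1 h2) (hbound _ _ h3 h4))
    have hinj : ∀ x y, x < n → y < n → (x + n - p) % n = (y + n - p) % n → x = y := by
      intro x y hx hy hxy
      have hmod : ∀ x, x < n → (x + n - p) % n = if p ≤ x then x - p else x + n - p := by
        intro x hx
        split
        · rw [show x + n - p = x - p + n by omega, Nat.add_mod_right, Nat.mod_eq_of_lt (by omega)]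
        · rw [Nat.mod_eq_of_lt (by omega)]
      rw [hmod x hx, hmod y hy] at hxy
      split at hxy <;> split at hxy <;> omega
    rcases pair_eq_of_add_eq heq with ⟨e1, e2⟩ | ⟨e1, e2⟩
    · exact Or.inl ⟨hinj a c ha hc e1, hinj b e hb he e2⟩
    · exact Or.inr (Or.inl ⟨hinj a e ha he e1, hinj b c hb hc e2⟩)
  · have key : ∀ n < 5, ∀ a < n, ∀ b < n, ∀ c < n, ∀ e < n,
        (2 ^ a + 2 ^ b) % (2 ^ n - 1) = (2 ^ c + 2 ^ e) % (2 ^ n - 1) → 2 ≤ n →
          (a = c ∧ b = e) ∨ (a = e ∧ b = c) := by decide +kernel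
    rw [one_mul, one_mul] at h
    rcases key n (by omega) a ha b hb c hc e he h hn with h | h
    · exact Or.inl h
    · exact Or.inr (Or.inl h)
  · exact Or.inr (Or.inr hex)

theorem diag_arith (hn : 2 ≤ n) (hd : d ∣ n) (hodd : Odd d) (hd2 : d ∣ 2 ^ n - 1) {i j : ℕ}
    (hi : i < n) (hj : j < n)
    (h : d * (2 ^ i + 2 ^ j) ≡ d * 1 [MOD 2 ^ n - 1]) : i = j := by
  have h1 : d * 1 ≡ d * (2 ^ (n - 1) + 2 ^ (n - 1)) [MOD 2 ^ n - 1] := by
    refine Nat.ModEq.mul_left d ?_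
    rw [← two_mul, ← pow_succ', show n - 1 + 1 = n by omega]
    exact (Nat.modEq_iff_dvd' Nat.one_le_two_pow).2 dvd_rfl
  rcases pair_arith hn hd hodd hd2 hi hj (by omega) (by omega) (h.trans h1) with
    ⟨e1, e2⟩ | ⟨e1, e2⟩ | ⟨rfl, rfl⟩
  · omega
  · omega
  · have key : ∀ i < 6, ∀ j < 6, (3 * (2 ^ i + 2 ^ j)) % 63 = 3 → i = j := by decide +kernel
    exact key i hi j hj (by simpa [Nat.ModEq] using h)

theorem sep_arith (hn : 2 ≤ n) (hd : d ∣ n) (hodd : Odd d) (hd2 : d ∣ 2 ^ n - 1) {r s t : ℕ}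
    (hr : r < n) (hs : s < n) (ht : t < n)
    (h : d * (2 ^ r + 2 ^ s) ≡ d * (1 + 2 ^ (r + t)) [MOD 2 ^ n - 1]) : s = t := by
  have h1 : d * (1 + 2 ^ (r + t)) ≡ d * (2 ^ 0 + 2 ^ ((r + t) % n)) [MOD 2 ^ n - 1] := by
    rw [pow_zero]
    exact ((two_pow_mod_eq n _).add_left 1).mul_left d
  have hmod : (r + t) % n = if r + t < n then r + t else r + t - n := by
    split
    · rw [Nat.mod_eq_of_lt (by omega)]
    · rw [Nat.mod_eq_sub_mod (by omega), Nat.mod_eq_of_lt (by omega)]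
  rcases pair_arith hn hd hodd hd2 hr hs (by omega) (Nat.mod_lt _ (by omega)) (h.trans h1) with
    ⟨e1, e2⟩ | ⟨e1, e2⟩ | ⟨rfl, rfl⟩
  · rw [hmod] at e2; split at e2 <;> omega
  · rw [hmod] at e1; split at e1 <;> omega
  · have key : ∀ r < 6, ∀ s < 6, ∀ t < 6,
        (3 * (2 ^ r + 2 ^ s)) % 63 = (3 * (1 + 2 ^ (r + t))) % 63 → s = t := by decide +kernel
    exact key r hr s hs t ht h

theorem fix_arith (hn : 2 ≤ n) (hd : d ∣ n) (hodd : Odd d) (hd2 : d ∣ 2 ^ n - 1) {r s : ℕ}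
    (hr : r < n) (hs : s < n) (hr0 : r ≠ 0)
    (h : d * (2 ^ r + 2 ^ s) ≡ d * (1 + 2 ^ (r + s)) [MOD 2 ^ n - 1]) :
    s = 0 ∨ (n = 6 ∧ d = 3 ∧ (s = 2 ∨ s = 3 ∨ s = 4)) := by
  have h1 : d * (1 + 2 ^ (r + s)) ≡ d * (2 ^ 0 + 2 ^ ((r + s) % n)) [MOD 2 ^ n - 1] := by
    rw [pow_zero]
    exact ((two_pow_mod_eq n _).add_left 1).mul_left d
  rcases pair_arith hn hd hodd hd2 hr hs (by omega) (Nat.mod_lt _ (by omega)) (h.trans h1) with
    ⟨e1, e2⟩ | ⟨e1, e2⟩ | ⟨rfl, rfl⟩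
  · exact absurd e1 hr0
  · exact Or.inl e2
  · have key : ∀ r < 6, ∀ s < 6, r ≠ 0 →
        (3 * (2 ^ r + 2 ^ s)) % 63 = (3 * (1 + 2 ^ (r + s))) % 63 →
          s = 0 ∨ s = 2 ∨ s = 3 ∨ s = 4 := by decide +kernel
    rcases key r hr s hs hr0 h with h | h
    · exact Or.inl h
    · exact Or.inr ⟨rfl, rfl, h⟩

end CfsgLib.SuzukiTrans
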