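import Cfsg.Agent.Lib.SuzukiTrans.Exponents
import Cfsg.Agent.Lib.SuzukiTwo.FieldLemmas
import Mathlib.FieldTheory.Perfect
import Mathlib.RingTheory.RootsOfUnity.Basic

/-!
Finite fields of characteristic two and their `d`-th powers, as used for 2-groups with a solvable
group transitive on the involutions.
-/

set_option autoImplicit false

namespace CfsgLib.SuzukiTrans

variable {F : Type*} [Field F] [Fintype F] [CharP F 2] {n d : ℕ}

/-- The conditions on the index `d` of the scalars in the multiplicative group. -/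
structure IsParam (n d : ℕ) : Prop where
  two_le : 2 ≤ n
  dvd : d ∣ n
  dvd' : d ∣ 2 ^ n - 1

theorem IsParam.odd (hd : IsParam n d) : Odd d :=
  Odd.of_dvd_nat (Nat.Even.sub_odd Nat.one_le_two_pow
    (Nat.even_pow.2 ⟨even_two, by have := hd.two_le; omega⟩) odd_one) hd.dvd'

theorem IsParam.lt (hd : IsParam n d) : d < 2 ^ n - 1 := by
  have h2 := hd.two_le
  have h1 : d ≤ n := Nat.le_of_dvd (by omega) hd.dvd
  have h3 : n + 2 ≤ 2 ^ n := by
    obtain ⟨m, rfl⟩ := Nat.exists_eq_add_of_le' h2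
    rw [pow_add]
    have := Nat.lt_two_pow_self (n := m)
    omega
  omega

theorem card_aut (hF : Nat.card F = 2 ^ n) : Nat.card (F ≃+* F) = n := by
  let : Algebra (ZMod 2) F := ZMod.algebra F 2
  have hfd : FiniteDimensional (ZMod 2) F := Module.Finite.of_finite
  let e : (F ≃+* F) ≃ (F ≃ₐ[ZMod 2] F) :=
    { toFun := fun σ => AlgEquiv.ofRingEquiv (f := σ) (fun c => RingHom.congr_fun
        (Subsingleton.elim ((σ : F →+* F).comp (algebraMap (ZMod 2) F)) (algebraMap (ZMod 2) F)) c)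
      invFun := fun τ => τ.toRingEquiv
      left_inv := fun σ => by ext x; rfl
      right_inv := fun τ => by ext x; rfl }
  rw [Nat.card_congr e, IsGalois.card_aut_eq_finrank]
  have h := Module.card_eq_pow_finrank (K := ZMod 2) (V := F)
  rw [ZMod.card, ← Nat.card_eq_fintype_card, hF] at h
  exact (Nat.pow_right_injective le_rfl h).symm

omit [CharP F 2] in
theorem exists_gen (hF : Nat.card F = 2 ^ n) :
    ∃ g : Fˣ, orderOf g = 2 ^ n - 1 ∧ ∀ x : F, x ≠ 0 → ∃ i : ℕ, x = (g : F) ^ i := by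
  obtain ⟨g, hg⟩ := IsCyclic.exists_generator (α := Fˣ)
  refine ⟨g, by rw [orderOf_eq_card_of_forall_mem_zpowers hg, Nat.card_units, hF], fun x hx => ?_⟩
  obtain ⟨i, hi⟩ := (isOfFinOrder_of_finite g).mem_powers_iff_mem_zpowers.2 (hg (Units.mk0 x hx))
  exact ⟨i, by rw [← Units.val_pow_eq_pow_val]; exact (congrArg Units.val hi).symm⟩

omit [CharP F 2] [Fintype F] in
theorem modEq_of_pow_eq {g : Fˣ} (hg : orderOf g = 2 ^ n - 1) {a b : ℕ}
    (h : (g : F) ^ a = (g : F) ^ b) : a ≡ b [MOD 2 ^ n - 1] := by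
  rw [← hg, ← pow_eq_pow_iff_modEq]
  exact Units.ext (by simpa using h)

theorem exists_exp (hn : 2 ≤ n) (hF : Nat.card F = 2 ^ n) (σ : F ≃+* F) :
    ∃ i < n, ∀ x, σ x = x ^ 2 ^ i := by
  let φ : Fin n → (F ≃+* F) := fun i => iterateFrobeniusEquiv F 2 i
  have hinj : Function.Injective φ := by
    intro i j h
    obtain ⟨g, hg, -⟩ := exists_gen hF
    have h1 : (g : F) ^ 2 ^ (i : ℕ) = (g : F) ^ 2 ^ (j : ℕ) := by
      have := DFunLike.congr_fun h (g : F)
      simpa only [φ, iterateFrobeniusEquiv_def] using this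
    have hlt : ∀ k : Fin n, 2 ^ (k : ℕ) < 2 ^ n - 1 := fun k => by
      have h2 : 2 ^ ((k : ℕ) + 1) ≤ 2 ^ n := Nat.pow_le_pow_right (by norm_num) k.2
      have h3 : 4 ≤ 2 ^ n := Nat.pow_le_pow_right (by norm_num : 1 ≤ 2) hn
      rw [pow_succ] at h2
      omega
    exact Fin.ext (Nat.pow_right_injective le_rfl
      ((modEq_of_pow_eq hg h1).eq_of_lt_of_lt (hlt i) (hlt j)))
  have : Finite (F ≃+* F) := Finite.of_injective (fun σ => (σ : F → F)) DFunLike.coe_injective
  have hbij := hinj.bijective_of_nat_card_le (by rw [card_aut hF, Nat.card_fin])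
  obtain ⟨i, rfl⟩ := hbij.2 σ
  exact ⟨i, i.2, fun x => iterateFrobeniusEquiv_def F 2 i x⟩

theorem aut_comm (hn : 2 ≤ n) (hF : Nat.card F = 2 ^ n) (σ τ : F ≃+* F) (x : F) :
    σ (τ x) = τ (σ x) := by
  obtain ⟨i, -, hi⟩ := exists_exp hn hF σ
  rw [hi, hi, map_pow]

omit [Fintype F] [CharP F 2] in
theorem aut_sum_eq_zero [Fintype (F ≃+* F)] (a : (F ≃+* F) → F) (h : ∀ x, ∑ σ, a σ * σ x = 0)
    (σ : F ≃+* F) : a σ = 0 := by
  have hli := CfsgLib.FieldAut.linearIndependent_aut (F := F)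
  rw [Fintype.linearIndependent_iff] at hli
  exact hli a (funext fun x => by simpa [Finset.sum_apply] using h x) σ

/-- An alternating biadditive map commuting with the `d`-th powers vanishes. -/
theorem alternating_eq_zero (hd : IsParam n d) (hF : Nat.card F = 2 ^ n) (β : F → F → F)
    (haddl : ∀ x y z, β (x + y) z = β x z + β y z) (haddr : ∀ x y z, β x (y + z) = β x y + β x z)
    (hequiv : ∀ c : F, c ≠ 0 → ∀ x y, β (c ^ d * x) (c ^ d * y) = c ^ d * β x y)
    (halt : ∀ x, β x x = 0) (x y : F) : β x y = 0 := by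
  classical
  have : Finite (F ≃+* F) := Finite.of_injective (fun σ => (σ : F → F)) DFunLike.coe_injective
  let : Fintype (F ≃+* F) := Fintype.ofFinite _
  obtain ⟨s, c₀, hc₀⟩ := CfsgLib.FieldAut.exists_sum_biadditive
    (AddMonoidHom.mk' (fun x => AddMonoidHom.mk' (β x) (haddr x))
      (fun x y => by ext z; exact haddl x y z))
  let c : (F ≃+* F) → (F ≃+* F) → F := fun σ τ => if (σ, τ) ∈ s then c₀ (σ, τ) else 0
  have hc : ∀ x y, β x y = ∑ σ, ∑ τ, c σ τ * (σ x * τ y) := by
    intro x y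
    have h : β x y = ∑ p ∈ s, c₀ p * (p.1 x * p.2 y) := hc₀ x y
    rw [h, ← Fintype.sum_prod_type' (fun σ τ => c σ τ * (σ x * τ y))]
    simp [c, ite_mul, Finset.sum_ite_mem]
  have huniq : ∀ a : (F ≃+* F) → (F ≃+* F) → F,
      (∀ x y, ∑ σ, ∑ τ, a σ τ * (σ x * τ y) = 0) → ∀ σ τ, a σ τ = 0 := by
    intro a h σ τ
    refine aut_sum_eq_zero (a σ) (fun y => ?_) τ
    refine aut_sum_eq_zero (fun σ => ∑ τ, a σ τ * τ y) (fun x => ?_) σ
    rw [← h x y]
    refine Finset.sum_congr rfl fun σ _ => ?_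
    rw [Finset.sum_mul]
    exact Finset.sum_congr rfl fun τ _ => by ring
  obtain ⟨g, hg, -⟩ := exists_gen hF
  set G : F := (g : F) ^ d with hG
  have hdiag : ∀ σ τ, σ ≠ τ → c σ τ = 0 := by
    intro σ τ hne
    have h := huniq (fun σ τ => c σ τ * (σ G * τ G + G)) (fun x y => by
      have h1 := hequiv g g.ne_zero x y
      rw [hc, hc, Finset.mul_sum] at h1
      simp only [Finset.mul_sum, map_mul] at h1
      rw [← CharTwo.add_eq_zero, ← Finset.sum_add_distrib] at h1
      rw [← h1]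
      refine Finset.sum_congr rfl fun σ _ => ?_
      rw [← Finset.sum_add_distrib]
      refine Finset.sum_congr rfl fun τ _ => ?_
      rw [← hG]
      ring) σ τ
    refine (mul_eq_zero.1 h).resolve_right fun h0 => hne ?_
    obtain ⟨i, hi, hσ⟩ := exists_exp hd.two_le hF σ
    obtain ⟨j, hj, hτ⟩ := exists_exp hd.two_le hF τ
    rw [CharTwo.add_eq_zero, hσ, hτ, hG, ← pow_mul, ← pow_mul, ← pow_add, ← mul_add] at h0
    have hij := diag_arith hd.two_le hd.dvd hd.odd hd.dvd' hi hj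
      (by rw [mul_one]; exact modEq_of_pow_eq hg h0)
    subst hij
    exact RingEquiv.ext fun x => by rw [hσ, hτ]
  have hq : ∀ x y, β x y = ∑ σ, c σ σ * σ (x * y) := by
    intro x y
    rw [hc]
    refine Finset.sum_congr rfl fun σ _ => ?_
    rw [Finset.sum_eq_single σ (fun τ _ hτ => by rw [hdiag σ τ hτ.symm, zero_mul])
      (fun h => absurd (Finset.mem_univ σ) h), map_mul]
  obtain ⟨r, hr⟩ := FiniteField.isSquare_of_char_two (ringChar.eq F 2) (x * y)
  rw [hq, hr, ← hq]
  exact halt r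

/-- An additively closed set of maps that is stable under conjugation by `d`-th powers contains the
components of its members. -/
theorem component_mem (hd : IsParam n d) (hF : Nat.card F = 2 ^ n) (M : Set (F → F))
    (h0 : (fun _ => 0) ∈ M) (hadd : ∀ f ∈ M, ∀ g ∈ M, (fun w => f w + g w) ∈ M)
    (hconj : ∀ c : F, c ≠ 0 → ∀ f ∈ M, (fun w => c ^ d * f (w / c ^ d)) ∈ M)
    (s : Finset (F ≃+* F)) (a : (F ≃+* F) → F) (hf : (fun w => ∑ σ ∈ s, a σ * σ w) ∈ M)
    {σ : F ≃+* F} (hσ : σ ∈ s) : (fun w => a σ * σ w) ∈ M := by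
  classical
  let : Algebra (ZMod 2) F := ZMod.algebra F 2
  obtain ⟨g, hg, -⟩ := exists_gen hF
  set c : F := (g : F) ^ d with hc
  have hc0 : c ≠ 0 := pow_ne_zero _ g.ne_zero
  let l : (F ≃+* F) → F := fun τ => c / τ c
  have hl : ∀ p : Polynomial (ZMod 2),
      (fun w => ∑ τ ∈ s, Polynomial.aeval (l τ) p * (a τ * τ w)) ∈ M := by
    intro p
    induction p using Polynomial.induction_on' with
    | add p q hp hq =>
      have := hadd _ hp _ hq
      simpa [← Finset.sum_add_distrib, add_mul] using this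
    | monomial m r =>
      rcases (show ∀ r : ZMod 2, r = 0 ∨ r = 1 by decide) r with rfl | rfl
      · simpa using h0
      · have := hconj ((g : F) ^ m) (pow_ne_zero m g.ne_zero) _ hf
        rw [← pow_mul, mul_comm m d, pow_mul, ← hc] at this
        simp only [Finset.mul_sum] at this
        refine Set.mem_of_eq_of_mem ?_ this
        funext w
        refine Finset.sum_congr rfl fun τ _ => ?_
        simp only [Polynomial.aeval_monomial, map_one, one_mul, l, map_div₀, map_pow, div_pow]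
        ring
  have hsep : ∀ τ ∈ s, τ ≠ σ → Polynomial.aeval (l σ) (minpoly (ZMod 2) (l τ)) ≠ 0 := by
    intro τ _ hτσ h
    obtain ⟨ρ, hρ⟩ := minpoly.exists_algEquiv_of_root' (K := ZMod 2) (L := F)
      (Algebra.IsAlgebraic.isAlgebraic (l τ)) h
    obtain ⟨r, hr, hρ'⟩ := exists_exp hd.two_le hF ρ.toRingEquiv
    obtain ⟨i, hi, hσ'⟩ := exists_exp hd.two_le hF σ
    obtain ⟨j, hj, hτ'⟩ := exists_exp hd.two_le hF τ
    simp only [l] at hρ
    rw [show ρ (c / τ c) = (c / τ c) ^ 2 ^ r from hρ' _, div_pow, div_eq_div_iff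
      (pow_ne_zero _ ((map_ne_zero τ).2 hc0)) ((map_ne_zero σ).2 hc0), hσ', hτ'] at hρ
    simp only [hc, ← pow_mul, ← pow_add] at hρ
    have hij := sep_arith hd.two_le hd.dvd hd.odd hd.dvd' hr hi hj (t := j) (by
      have := modEq_of_pow_eq hg hρ
      rw [pow_add]
      convert this using 1 <;> ring)
    subst hij
    exact hτσ (RingEquiv.ext fun x => by rw [hσ', hτ'])
  have h1 := hl ((∏ τ ∈ s.erase σ, minpoly (ZMod 2) (l τ)) ^ (Fintype.card F - 1))
  refine Set.mem_of_eq_of_mem ?_ h1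
  funext w
  rw [Finset.sum_eq_single σ]
  · rw [map_pow, map_prod, FiniteField.pow_card_sub_one_eq_one _ ?_, one_mul]
    rw [Finset.prod_ne_zero_iff]
    intro τ hτ
    exact hsep τ (Finset.mem_of_mem_erase hτ) (Finset.ne_of_mem_erase hτ)
  · intro τ hτ hne
    rw [map_pow, map_prod, Finset.prod_eq_zero (Finset.mem_erase.2 ⟨hne, hτ⟩) (minpoly.aeval _ _),
      zero_pow (by have := Fintype.one_lt_card (α := F); omega), zero_mul]
  · exact fun h => absurd hσ h

/-- The quotients `c / σ c` of `d`-th powers span the field additively, up to one exception. -/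
theorem closure_div_eq_top_or (hd : IsParam n d) (hF : Nat.card F = 2 ^ n) {σ : F ≃+* F}
    (hσ : σ ≠ RingEquiv.refl F) :
    AddSubgroup.closure (Set.range fun c : F => c ^ d / σ (c ^ d)) = ⊤ ∨
      (n = 6 ∧ d = 3 ∧ ∃ s, (s = 2 ∨ s = 3 ∨ s = 4) ∧ ∀ x, σ x = x ^ 2 ^ s) := by
  classical
  set W := AddSubgroup.closure (Set.range fun c : F => c ^ d / σ (c ^ d)) with hW
  refine or_iff_not_imp_left.2 fun htop => ?_
  have hgen : ∀ c, c ^ d / σ (c ^ d) ∈ W := fun c => AddSubgroup.subset_closure ⟨c, rfl⟩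
  have hmul : ∀ x ∈ W, ∀ y ∈ W, x * y ∈ W := by
    intro x hx
    induction hx using AddSubgroup.closure_induction with
    | mem x hx =>
      obtain ⟨c, rfl⟩ := hx
      intro y hy
      induction hy using AddSubgroup.closure_induction with
      | mem y hy =>
        obtain ⟨e, rfl⟩ := hy
        simpa [div_mul_div_comm, mul_pow] using hgen (c * e)
      | zero => simp
      | add y z _ _ ihy ihz => rw [mul_add]; exact W.add_mem ihy ihz
      | neg y _ ihy => rw [mul_neg]; exact W.neg_mem ihy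
    | zero => intro y _; simp
    | add x z _ _ ihx ihz => intro y hy; rw [add_mul]; exact W.add_mem (ihx y hy) (ihz y hy)
    | neg x _ ihx => intro y hy; rw [neg_mul]; exact W.neg_mem (ihx y hy)
  have hone : (1 : F) ∈ W := by simpa using hgen 1
  let S : Finset F := Finset.univ.filter fun x => x ∈ W ∧ x ≠ 0
  have hSW : Nat.card W = S.card + 1 := by
    have h1 : S = (Finset.univ.filter fun x => x ∈ W).erase 0 := by
      ext x
      simp [S, and_comm]
    rw [h1, Finset.card_erase_add_one (by simp [W.zero_mem]), Nat.card_eq_fintype_card,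
      Fintype.card_subtype]
  have hpowW : ∀ x ∈ W, x ^ Nat.card W = x := by
    intro x hx
    by_cases hx0 : x = 0
    · rw [hx0, zero_pow Nat.card_pos.ne']
    have himg : S.image (x * ·) = S := by
      refine Finset.eq_of_subset_of_card_le (fun y hy => ?_)
        (by rw [Finset.card_image_of_injective _ (mul_right_injective₀ hx0)])
      obtain ⟨z, hz, rfl⟩ := Finset.mem_image.1 hy
      simp only [S, Finset.mem_filter, Finset.mem_univ, true_and] at hz ⊢
      exact ⟨hmul _ hx _ hz.1, mul_ne_zero hx0 hz.2⟩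
    have hne : ∏ y ∈ S, y ≠ 0 := Finset.prod_ne_zero_iff.2 fun y hy => by
      simp only [S, Finset.mem_filter] at hy
      exact hy.2.2
    have h1 : x ^ S.card * ∏ y ∈ S, y = 1 * ∏ y ∈ S, y := by
      rw [one_mul]
      conv_rhs => rw [← himg]
      rw [Finset.prod_image (fun a _ b _ h => mul_left_cancel₀ hx0 h), Finset.prod_mul_distrib,
        Finset.prod_const]
    rw [hSW, pow_succ, mul_right_cancel₀ hne h1, one_mul]
  obtain ⟨m, hmn, hm⟩ := (Nat.dvd_prime_pow Nat.prime_two).1 (hF ▸ W.card_addSubgroup_dvd_card)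
  have hlt : m < n := by
    refine lt_of_le_of_ne hmn fun h => htop ?_
    exact AddSubgroup.eq_top_of_card_eq W (by rw [hm, h, hF])
  have hm0 : m ≠ 0 := by
    intro h
    have : Nontrivial W := ⟨⟨⟨1, hone⟩, 0, fun e => one_ne_zero (congrArg Subtype.val e)⟩⟩
    have := Finite.one_lt_card (α := W)
    rw [hm, h, pow_zero] at this
    omega
  obtain ⟨g, hg, -⟩ := exists_gen hF
  obtain ⟨s, hs, hσ'⟩ := exists_exp hd.two_le hF σ
  have h := hpowW _ (hgen g)
  have hg0 : (g : F) ^ d ≠ 0 := pow_ne_zero _ g.ne_zero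
  rw [hm, hσ', div_pow, div_eq_div_iff (pow_ne_zero _ (pow_ne_zero _ hg0)) (pow_ne_zero _ hg0)] at h
  simp only [← pow_mul, ← pow_add] at h
  rcases fix_arith hd.two_le hd.dvd hd.odd hd.dvd' hlt hs hm0 (by
      have := modEq_of_pow_eq hg h
      rw [pow_add]
      convert this using 1 <;> ring) with rfl | ⟨rfl, rfl, hs'⟩
  · exact absurd (RingEquiv.ext fun x => by simpa using hσ' x) hσ
  · exact ⟨rfl, rfl, s, hs', hσ'⟩

omit [CharP F 2] in
theorem card_pow_eq_one {e : ℕ} (he : 0 < e) [DecidableEq F] :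
    (Finset.univ.filter fun x : F => x ^ e = 1).card ≤ e := by
  refine le_trans (Finset.card_le_card fun x hx => ?_)
    ((Multiset.toFinset_card_le _).trans (Polynomial.card_nthRoots e (1 : F)))
  simpa [Polynomial.mem_nthRoots he] using hx

/-- In the exceptional case no coefficient is realised. -/
theorem exceptional_false (hF : Nat.card F = 2 ^ 6) {σ : F ≃+* F} {s : ℕ}
    (hs : s = 2 ∨ s = 3 ∨ s = 4) (hσ : ∀ x, σ x = x ^ 2 ^ s) (T : AddSubgroup F)
    (hTmul : ∀ c : F, c ≠ 0 → ∀ y ∈ T, c ^ 3 / σ (c ^ 3) * y ∈ T)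
    (hTtrans : ∀ l : F, l ≠ 0 → ∀ y ∈ T, ∃ φ : F ≃+* F, l / σ l * φ y ∈ T)
    (hTq : ∀ y ∈ T, y ≠ 0 → ∃ v, v ≠ 0 ∧ y = v / σ v) {a : F} (ha : a ∈ T) (ha0 : a ≠ 0) :
    False := by
  classical
  obtain ⟨e, k, f, α, he2, hek, hef, hα, hM, hMe⟩ : ∃ e k f α : ℕ, 2 ≤ e ∧ e + 1 = 2 ^ k ∧
      e * f = 63 ∧ 63 ∣ α * (3 * (2 ^ s - 1)) + f ∧ 63 ∣ (2 ^ s - 1) * (3 * e) ∧
        ¬ 63 ∣ (2 ^ s - 1) * e := by
    rcases hs with rfl | rfl | rfl
    · exact ⟨7, 3, 9, 6, by norm_num⟩
    · exact ⟨3, 2, 21, 2, by norm_num⟩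
    · exact ⟨7, 3, 9, 4, by norm_num⟩
  set M := 2 ^ s - 1 with hMdef
  obtain ⟨g, hg, hgen⟩ := exists_gen hF
  rw [show 2 ^ 6 - 1 = 63 from rfl] at hg
  have hord : ∀ i : ℕ, (g : F) ^ i = 1 ↔ 63 ∣ i := fun i => by
    rw [← hg, orderOf_dvd_iff_pow_eq_one, Units.ext_iff, Units.val_pow_eq_pow_val, Units.val_one]
  have h63 : ∀ x : F, x ≠ 0 → ∀ i, 63 ∣ i → x ^ i = 1 := by
    intro x hx i hi
    obtain ⟨j, rfl⟩ := hgen x hx
    rw [← pow_mul, hord]
    exact hi.mul_left j
  have hdiv : ∀ v : F, v ≠ 0 → v / σ v = (v ^ M)⁻¹ := by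
    intro v hv
    rw [hσ, show 2 ^ s = M + 1 by have := Nat.one_le_two_pow (n := s); omega, pow_succ]
    field_simp
  -- the coefficients
  have hTe : ∀ y ∈ T, y ≠ 0 → y ^ (3 * e) = 1 := by
    intro y hy hy0
    obtain ⟨v, hv, rfl⟩ := hTq y hy hy0
    rw [hdiv v hv, inv_pow, ← pow_mul, h63 v hv _ hM, inv_one]
  have hTW : ∀ x : F, x ^ (e + 1) = x → ∀ y ∈ T, x * y ∈ T := by
    intro x hx y hy
    by_cases hx0 : x = 0
    · rw [hx0, zero_mul]
      exact T.zero_mem
    obtain ⟨i, rfl⟩ := hgen x hx0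
    have h1 : ((g : F) ^ i) ^ e = 1 := by
      rw [pow_succ] at hx
      exact (mul_eq_right₀ hx0).1 hx
    rw [← pow_mul, hord, ← hef, mul_comm e f] at h1
    obtain ⟨t, rfl⟩ := Nat.dvd_of_mul_dvd_mul_right (by omega) h1
    have := hTmul ((g : F) ^ (α * t)) (pow_ne_zero _ g.ne_zero) y hy
    rw [hdiv _ (pow_ne_zero _ (pow_ne_zero _ g.ne_zero)), ← pow_mul, ← pow_mul] at this
    rwa [show ((g : F) ^ (α * t * (3 * M)))⁻¹ = (g : F) ^ (f * t) from inv_eq_of_mul_eq_one_right (by
      rw [← pow_add, hord, show α * t * (3 * M) + f * t = (α * (3 * M) + f) * t by ring]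
      exact hα.mul_right t)] at this
  -- a second coefficient
  obtain ⟨b, hb, hba, hba'⟩ : ∃ b ∈ T, b ^ e ≠ a ^ e ∧ b ≠ 0 := by
    set A := a ^ e with hA
    set G := (g : F) ^ (M * e) with hG
    have hG1 : G ≠ 1 := fun h => hMe ((hord _).1 h)
    have hG0 : G ≠ 0 := pow_ne_zero _ g.ne_zero
    have hA0 : A ≠ 0 := pow_ne_zero _ ha0
    have hA3 : A ^ 3 = 1 := by rw [hA, ← pow_mul, mul_comm, hTe a ha ha0]
    have hG3 : G ^ 3 = 1 := by
      rw [hG, ← pow_mul, hord, mul_assoc, mul_comm e 3]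
      exact hM
    have hφA : ∀ φ : F ≃+* F, φ A = A ∨ φ A = A ^ 2 := by
      intro φ
      obtain ⟨t, -, ht⟩ := exists_exp (show 2 ≤ 6 by norm_num) hF φ
      have h2 : 2 ^ t % 3 = 1 ∨ 2 ^ t % 3 = 2 := by
        clear ht
        induction t with
        | zero => norm_num
        | succ t ih => rw [pow_succ]; omega
      rw [ht, ← Nat.div_add_mod (2 ^ t) 3, pow_add, pow_mul, hA3, one_pow, one_mul]
      rcases h2 with h | h
      · exact Or.inl (by rw [h, pow_one])
      · exact Or.inr (by rw [h])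
    suffices H : ∃ b ∈ T, b ≠ 0 ∧ b ^ e ≠ a ^ e from
      H.imp fun b hb => ⟨hb.1, hb.2.2, hb.2.1⟩
    by_contra hcon
    push Not at hcon
    have hstep : ∀ j : ℕ, ∃ φ : F ≃+* F, φ A = A * G ^ j := by
      intro j
      obtain ⟨φ, hφ⟩ := hTtrans ((g : F) ^ j) (pow_ne_zero _ g.ne_zero) a ha
      refine ⟨φ, ?_⟩
      have h := hcon _ hφ (mul_ne_zero (div_ne_zero (pow_ne_zero _ g.ne_zero)
        ((map_ne_zero σ).2 (pow_ne_zero _ g.ne_zero))) ((map_ne_zero φ).2 ha0))
      rw [hdiv _ (pow_ne_zero _ g.ne_zero), mul_pow, inv_pow, ← map_pow, ← pow_mul, ← pow_mul,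
        show j * (M * e) = M * e * j by ring, pow_mul, ← hG, ← hA] at h
      rw [inv_mul_eq_iff_eq_mul₀ (pow_ne_zero _ hG0)] at h
      rw [h, mul_comm]
    obtain ⟨φ₁, h1⟩ := hstep 1
    obtain ⟨φ₂, h2⟩ := hstep 2
    rw [pow_one] at h1
    have hG2 : G ^ 2 ≠ 1 := fun h => hG1 (by rw [← hG3, pow_succ, h, one_mul])
    have e1 : G = A := by
      rcases hφA φ₁ with h | h
      · rw [h] at h1
        exact absurd ((mul_eq_left₀ hA0).1 h1.symm) hG1
      · rw [h, pow_two] at h1
        exact (mul_left_cancel₀ hA0 h1).symm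
    rcases hφA φ₂ with h | h
    · rw [h] at h2
      exact hG2 ((mul_eq_left₀ hA0).1 h2.symm)
    · rw [h, pow_two A] at h2
      have h3 : G = G ^ 2 := by
        conv_lhs => rw [e1]
        exact mul_left_cancel₀ hA0 h2
      rw [pow_two] at h3
      exact hG1 ((mul_eq_left₀ hG0).1 h3.symm)
  -- counting
  have hadd : ∀ x y : F, (x + y) ^ (e + 1) = x ^ (e + 1) + y ^ (e + 1) := by
    intro x y
    rw [hek]
    exact add_pow_char_pow x y 2 k
  set W : Finset F := insert 0 ((Finset.range e).image fun t => (g : F) ^ (f * t)) with hW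
  have hWmem : ∀ x ∈ W, x ^ (e + 1) = x := by
    intro x hx
    rw [hW, Finset.mem_insert, Finset.mem_image] at hx
    rcases hx with rfl | ⟨t, -, rfl⟩
    · exact zero_pow (Nat.succ_ne_zero e)
    · rw [pow_succ, ← pow_mul, (hord _).2 ⟨t, by rw [← hef]; ring⟩, one_mul]
  have hf0 : 0 < f := Nat.pos_of_ne_zero fun h => by simp [h] at hef
  have hWcard : W.card = e + 1 := by
    rw [hW, Finset.card_insert_of_notMem (by simp), Finset.card_image_of_injOn, Finset.card_range]
    intro t ht t' ht' h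
    rw [Finset.coe_range, Set.mem_Iio] at ht ht'
    have hlt : ∀ {u}, u < e → f * u < 63 := fun hu => by
      rw [← hef, mul_comm e f]
      exact Nat.mul_lt_mul_of_pos_left hu hf0
    exact Nat.eq_of_mul_eq_mul_left hf0
      ((modEq_of_pow_eq (n := 6) hg h).eq_of_lt_of_lt (hlt ht) (hlt ht'))
  have hinj : Set.InjOn (fun p : F × F => p.1 * a + p.2 * b) (W ×ˢ W : Finset (F × F)) := by
    rintro ⟨x, y⟩ hxy ⟨x', y'⟩ hxy' h
    simp only [Finset.coe_product, Set.mem_prod, Finset.mem_coe] at hxy hxy'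
    have hy : y = y' := by
      by_contra hne
      apply hba
      have hz : (x + x') * a = (y + y') * b := by
        rw [← CharTwo.add_eq_zero]
        linear_combination h + CharTwo.add_self_eq_zero (x' * a + y' * b)
      have hyy : y + y' ≠ 0 := fun h0 => hne (CharTwo.add_eq_zero.1 h0)
      have hsum : ∀ u v : F, u ^ (e + 1) = u → v ^ (e + 1) = v → u + v ≠ 0 → (u + v) ^ e = 1 := by
        intro u v hu hv huv
        have := hadd u v
        rw [hu, hv, pow_succ] at this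
        exact (mul_eq_right₀ huv).1 this
      have hxx : x + x' ≠ 0 := fun h0 => by
        rw [h0, zero_mul] at hz
        rcases mul_eq_zero.1 hz.symm with h1 | h1
        · exact hyy h1
        · exact hba' h1
      have := congrArg (· ^ e) hz
      rw [mul_pow, mul_pow, hsum x x' (hWmem _ hxy.1) (hWmem _ hxy'.1) hxx,
        hsum y y' (hWmem _ hxy.2) (hWmem _ hxy'.2) hyy, one_mul, one_mul] at this
      exact this.symm
    subst hy
    simp only [add_left_inj] at h
    rw [mul_right_cancel₀ ha0 h]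
  have hsub : (W ×ˢ W).image (fun p : F × F => p.1 * a + p.2 * b) ⊆
      insert 0 (Finset.univ.filter fun x : F => x ^ (3 * e) = 1) := by
    intro z hz
    obtain ⟨⟨x, y⟩, hxy, rfl⟩ := Finset.mem_image.1 hz
    rw [Finset.mem_product] at hxy
    have hzT : x * a + y * b ∈ T :=
      T.add_mem (hTW x (hWmem _ hxy.1) a ha) (hTW y (hWmem _ hxy.2) b hb)
    rw [Finset.mem_insert, Finset.mem_filter]
    exact or_iff_not_imp_left.2 fun h0 => ⟨Finset.mem_univ _, hTe _ hzT h0⟩
  have h1 := (Finset.card_le_card hsub).trans (Finset.card_insert_le _ _)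
  rw [Finset.card_image_of_injOn hinj, Finset.card_product, hWcard] at h1
  have h2 := card_pow_eq_one (F := F) (e := 3 * e) (by omega)
  have h3 : (e + 1) * (e + 1) = e * e + 2 * e + 1 := by ring
  have h4 : 2 * e ≤ e * e := Nat.mul_le_mul_right e he2
  omega

end CfsgLib.SuzukiTrans
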