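import Cfsg.Agent.S3360
import Cfsg.Agent.Lib.SuzukiTrans.Field
import Cfsg.Agent.Lib.SuzukiTwo.Setup
import Mathlib.GroupTheory.Index
import Mathlib.GroupTheory.GroupAction.Quotient

/-!
2-groups with a group of automorphisms transitive on the involutions: semilinear coordinates for
the involutions, with all `d`-th powers among the scalars.
-/

set_option autoImplicit false

namespace CfsgLib.SuzukiTrans

open CfsgLib.SuzukiTwo (exists_involution_pow)

universe u

variable {P : Type u} [Group P]

/-- A group `K` of automorphisms of a finite non-abelian 2-group permuting its (at least two)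
involutions transitively. -/
structure IsTrans (K : Subgroup (MulAut P)) : Prop where
  finite : Finite P
  isPGroup : IsPGroup 2 P
  nonab : ∃ x y : P, x * y ≠ y * x
  two : ∃ x y : P, x ≠ y ∧ x ≠ 1 ∧ x * x = 1 ∧ y ≠ 1 ∧ y * y = 1
  trans : ∀ x y : P, x ≠ 1 → x * x = 1 → y ≠ 1 → y * y = 1 → ∃ k : K, (k : MulAut P) x = y

variable {K : Subgroup (MulAut P)}

theorem IsTrans.exists_involution (hT : IsTrans K) : ∃ e : P, e ≠ 1 ∧ e * e = 1 := by
  obtain ⟨x, -, -, hx, hxx, -⟩ := hT.two
  exact ⟨x, hx, hxx⟩

theorem IsTrans.map_invol {k : MulAut P} {x : P} (hx : x * x = 1) : k x * k x = 1 := by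
  rw [← map_mul, hx, map_one]

theorem IsTrans.involution_central (hT : IsTrans K) {e : P} (he : e * e = 1) :
    e ∈ Subgroup.center P := by
  by_cases he1 : e = 1
  · rw [he1]; exact Subgroup.one_mem _
  have := hT.finite
  have : Nontrivial P := ⟨⟨e, 1, he1⟩⟩
  have := hT.isPGroup.isNilpotent
  obtain ⟨z, hz, hz1⟩ := (Subgroup.bot_or_exists_ne_one (Subgroup.center P)).resolve_left
    (by
      have := CfsgLib.PSolvable.inf_center_ne_bot (G := P) (N := ⊤) top_ne_bot
      simpa using this)
  obtain ⟨m, hm⟩ := hT.isPGroup z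
  obtain ⟨i, -, hi1, hi2⟩ := exists_involution_pow hz1 hm
  obtain ⟨k, hk⟩ := hT.trans _ _ hi1 hi2 he1 he
  rw [Subgroup.mem_center_iff]
  intro g
  have hc : (k : MulAut P).symm g * z ^ 2 ^ i = z ^ 2 ^ i * (k : MulAut P).symm g :=
    Subgroup.mem_center_iff.1 (Subgroup.pow_mem _ hz _) _
  have := congrArg (k : MulAut P) hc
  simp only [map_mul, MulEquiv.apply_symm_apply] at this
  rw [← hk]
  exact this

/-- A transitive semilinear group contains the `d`-th powers for some `d` dividing `n`. -/
theorem exists_param {F : Type*} [Field F] [Fintype F] [CharP F 2] {n : ℕ} (hn : 2 ≤ n)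
    (hF : Nat.card F = 2 ^ n) (H : Subgroup (Equiv.Perm F))
    (hsemi : ∀ h : H, ∃ (a : F) (σ : F ≃+* F), ∀ v, (h : Equiv.Perm F) v = a * σ v)
    (htrans : ∀ x y : F, x ≠ 0 → y ≠ 0 → ∃ h : H, (h : Equiv.Perm F) x = y) :
    ∃ d, IsParam n d ∧ ∀ x : F, x ≠ 0 → ∃ h : H, ∀ v, (h : Equiv.Perm F) v = x ^ d * v := by
  classical
  choose a σ hσ using hsemi
  have ha : ∀ h, a h ≠ 0 := fun h h0 => zero_ne_one (α := F)
    ((h : Equiv.Perm F).injective (by rw [hσ, hσ, h0, zero_mul, zero_mul]))
  have huniq : ∀ h b τ, (∀ v, (h : H).1 v = b * τ v) → a h = b ∧ σ h = τ := by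
    intro h b τ hb
    have h1 : a h = b := by simpa using (hσ h 1).symm.trans (hb 1)
    exact ⟨h1, RingEquiv.ext fun v => mul_left_cancel₀ (ha h)
      (by rw [← hσ, hb, h1])⟩
  have hmul : ∀ g h : H, a (g * h) = a g * σ g (a h) ∧ σ (g * h) = σ g * σ h := fun g h =>
    huniq (g * h) _ _ fun v => by
      rw [Subgroup.coe_mul, Equiv.Perm.mul_apply, hσ h, hσ g, map_mul, ← mul_assoc]
      rfl
  let τ : H →* (F ≃+* F) := MonoidHom.mk' σ fun g h => (hmul g h).2
  let lam : τ.ker →* Fˣ := MonoidHom.mk' (fun g => Units.mk0 (a g.1) (ha _)) fun g h =>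
    Units.ext (by
      show a (g.1 * h.1) = a g.1 * a h.1
      rw [(hmul g.1 h.1).1, show σ g.1 = 1 from g.2]
      rfl)
  have hlam : Function.Injective lam := fun g h e => by
    refine Subtype.ext (Subtype.ext (Equiv.ext fun v => ?_))
    rw [hσ g.1, hσ h.1, show a g.1 = a h.1 from congrArg Units.val e,
      show σ g.1 = σ h.1 from (show σ g.1 = 1 from g.2).trans (show σ h.1 = 1 from h.2).symm]
  have hfin : Finite (F ≃+* F) := Finite.of_injective (fun σ => (σ : F → F)) DFunLike.coe_injective
  have hcard : (2 ^ n - 1) ∣ Nat.card τ.ker * Nat.card τ.range := by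
    rw [← Subgroup.index_ker, Subgroup.card_mul_index]
    have horb : MulAction.orbit H (1 : F) = {0}ᶜ := by
      ext y
      refine ⟨?_, fun hy => ?_⟩
      · rintro ⟨h, rfl⟩
        show (h : Equiv.Perm F) 1 ≠ 0
        rw [hσ, map_one, mul_one]
        exact ha h
      · obtain ⟨h, hh⟩ := htrans 1 y one_ne_zero hy
        exact ⟨h, hh⟩
    have := (MulAction.stabilizer H (1 : F)).index_dvd_card
    rwa [MulAction.index_stabilizer, horb, Set.ncard_compl, Set.ncard_singleton, hF] at this
  have hunits : Nat.card Fˣ = 2 ^ n - 1 := by rw [Nat.card_units, hF]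
  have hker : Nat.card τ.ker = Nat.card lam.range := Nat.card_congr
    (MonoidHom.ofInjective hlam).toEquiv
  refine ⟨lam.range.index, ⟨hn, ?_, hunits ▸ lam.range.index_dvd_card⟩, fun x hx => ?_⟩
  · rw [hker, ← hunits, ← lam.range.card_mul_index] at hcard
    exact (Nat.dvd_of_mul_dvd_mul_left Nat.card_pos hcard).trans
      (card_aut hF ▸ τ.range.card_subgroup_dvd_card)
  · obtain ⟨g, hg⟩ : (Units.mk0 x hx) ^ lam.range.index ∈ lam.range :=
      lam.range.pow_index_mem _
    refine ⟨g.1, fun v => ?_⟩
    rw [hσ, show σ g.1 = 1 from g.2, show a g.1 = x ^ lam.range.index by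
      have := congrArg Units.val hg
      simpa [lam] using this]
    rfl

/-- Coordinates for the involutions: a field `F` and an additive parametrisation `η` of the elements
with trivial square, on which `K` acts semilinearly with all `d`-th powers as scalars. -/
structure IsCoord {F : Type*} [Field F] (K : Subgroup (MulAut P)) (η : F → P) (n d : ℕ) : Prop where
  map_add : ∀ v w, η (v + w) = η v * η w
  inj : Function.Injective η
  mem_range : ∀ x, x * x = 1 → x ∈ Set.range η
  sq : ∀ v, η v * η v = 1
  card : Nat.card F = 2 ^ n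
  param : IsParam n d
  semilin : ∀ k : K, ∃ (a : F) (φ : F ≃+* F), ∀ v, (k : MulAut P) (η v) = η (a * φ v)
  scal : ∀ x : F, x ≠ 0 → ∃ k : K, ∀ v, (k : MulAut P) (η v) = η (x ^ d * v)

theorem IsTrans.exists_coord (hT : IsTrans K) (hsol : Group.IsSolvable K) :
    ∃ (F : Type) (_ : Field F) (_ : Fintype F) (_ : CharP F 2) (η : F → P) (n d : ℕ),
      IsCoord K η n d := by
  classical
  have := hT.finite
  let E : Subgroup P :=
    { carrier := {x | x * x = 1}
      one_mem' := one_mul 1
      mul_mem' := fun {x y} hx hy => by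
        show x * y * (x * y) = 1
        have hc := Subgroup.mem_center_iff.1 (hT.involution_central hx) y
        calc x * y * (x * y) = x * (y * x) * y := by group
          _ = (x * x) * (y * y) := by rw [hc]; group
          _ = 1 := by rw [show x * x = 1 from hx, show y * y = 1 from hy, one_mul]
      inv_mem' := fun {x} hx => by
        show x⁻¹ * x⁻¹ = 1
        rw [← mul_inv_rev, show x * x = 1 from hx, inv_one] }
  have hEc : ∀ a b : E, a * b = b * a := fun a b => Subtype.ext
    (Subgroup.mem_center_iff.1 (hT.involution_central b.2) a)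
  let : CommGroup E := { (inferInstance : Group E) with mul_comm := hEc }
  let : Module (ZMod 2) (Additive E) := AddCommGroup.zmodModule (fun a => by
    apply Additive.toMul.injective
    rw [toMul_nsmul, pow_two]
    exact Subtype.ext (a.toMul).2)
  let act : K → Additive E →+ Additive E := fun k =>
    { toFun := fun a => Additive.ofMul (⟨(k : MulAut P) (a.toMul : P),
        IsTrans.map_invol (a.toMul).2⟩ : E)
      map_zero' := by
        apply Additive.toMul.injective
        exact Subtype.ext (map_one (k : MulAut P))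
      map_add' := fun a b => by
        apply Additive.toMul.injective
        exact Subtype.ext (map_mul (k : MulAut P) _ _) }
  have hmulact : ∀ k l : K, ∀ a, act (k * l) a = act k (act l a) := fun k l a => rfl
  have hact1 : ∀ a, act 1 a = a := fun a => rfl
  let le : K → (Additive E ≃ₗ[ZMod 2] Additive E) := fun k =>
    { (act k).toZModLinearMap 2 with
      invFun := act k⁻¹
      left_inv := fun a => by
        show act k⁻¹ (act k a) = a
        rw [← hmulact, inv_mul_cancel, hact1]
      right_inv := fun a => by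
        show act k (act k⁻¹ a) = a
        rw [← hmulact, mul_inv_cancel, hact1] }
  let ρ : K →* (Additive E ≃ₗ[ZMod 2] Additive E) :=
    MonoidHom.mk' le fun k l => LinearEquiv.ext fun a => rfl
  have : Finite (Additive E ≃ₗ[ZMod 2] Additive E) :=
    Finite.of_injective (fun f => (f : Additive E → Additive E)) DFunLike.coe_injective
  obtain ⟨x₀, y₀, hxy, hx₀, hxx₀, hy₀, hyy₀⟩ := hT.two
  have : Nontrivial (Additive E) := ⟨⟨Additive.ofMul ⟨x₀, hxx₀⟩, Additive.ofMul ⟨y₀, hyy₀⟩,
    fun h => hxy (congrArg (fun a : Additive E => (a.toMul : P)) h)⟩⟩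
  have hnz : ∀ a : Additive E, a ≠ 0 → ((a.toMul : E) : P) ≠ 1 := fun a ha h => ha (by
    apply Additive.toMul.injective
    exact Subtype.ext h)
  have hsol' : Group.IsSolvable ρ.range := by
    have : Group.IsSolvable K := hsol
    exact Group.isSolvable_of_surjective (f := ρ.rangeRestrict) ρ.rangeRestrict_surjective
  have hS := Cfsg.Agent.S3360.result 2 (V := Additive E) hsol' ρ.range.subtype
    Subtype.val_injective (fun v w hv hw => by
      obtain ⟨k, hk⟩ := hT.trans _ _ (hnz v hv) (v.toMul).2 (hnz w hw) (w.toMul).2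
      exact ⟨⟨ρ k, k, rfl⟩, Additive.toMul.injective (Subtype.ext hk)⟩)
  obtain ⟨n, hn⟩ := IsPGroup.iff_card.1 (hT.isPGroup.to_subgroup E)
  rcases hS with ⟨F, iF, iFF, e, he⟩ | hcard
  swap
  · exfalso
    rw [show Nat.card (Additive E) = Nat.card E from rfl, hn] at hcard
    have h1 : n ≠ 0 := by
      intro h
      have := Finite.one_lt_card (α := Additive E)
      rw [show Nat.card (Additive E) = Nat.card E from rfl, hn, h, pow_zero] at this
      omega
    have h2 : 2 ∣ 2 ^ n := dvd_pow_self 2 h1
    simp only [Set.mem_insert_iff, Set.mem_singleton_iff] at hcard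
    omega
  have hchar : CharP F 2 := by
    refine CharTwo.of_one_ne_zero_of_two_eq_zero one_ne_zero ?_
    obtain ⟨x, hx⟩ := e.surjective (1 : F)
    rw [← one_add_one_eq_two, ← hx, ← map_add, show x + x = 0 from ?_, map_zero]
    apply Additive.toMul.injective
    exact Subtype.ext (x.toMul).2
  let η : F → P := fun v => ((e.symm v).toMul : E)
  have hη : ∀ x : Additive E, η (e x) = (x.toMul : P) := fun x => by
    simp only [η, AddEquiv.symm_apply_apply]
  have hsemi : ∀ k : K, ∃ (a : F) (φ : F ≃+* F), ∀ v, (k : MulAut P) (η v) = η (a * φ v) := by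
    intro k
    obtain ⟨a, φ, h⟩ := he ⟨ρ k, k, rfl⟩
    refine ⟨a, φ, fun v => ?_⟩
    have h' := h (e.symm v)
    rw [AddEquiv.apply_symm_apply] at h'
    rw [← h', hη]
    rfl
  have hinj : Function.Injective η := fun v w h =>
    e.symm.injective (Additive.toMul.injective (Subtype.ext h))
  have hmem : ∀ x, x * x = 1 → x ∈ Set.range η := fun x hx =>
    ⟨e (Additive.ofMul ⟨x, hx⟩), hη _⟩
  have hF : Nat.card F = 2 ^ n := by rw [← Nat.card_congr e.toEquiv]; exact hn
  have hn2 : 2 ≤ n := by
    by_contra h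
    have h3 : 3 ≤ Nat.card E := by
      have := Fintype.ofFinite E
      rw [Nat.card_eq_fintype_card]
      exact (Fintype.two_lt_card_iff (α := E)).2 ⟨1, ⟨x₀, hxx₀⟩, ⟨y₀, hyy₀⟩,
        fun e' => hx₀ (congrArg Subtype.val e').symm, fun e' => hy₀ (congrArg Subtype.val e').symm,
        fun e' => hxy (congrArg Subtype.val e')⟩
    rw [hn] at h3
    interval_cases n <;> simp at h3
  choose a φ hφ using hsemi
  have hπ : ∀ k : K, Function.Bijective fun v => a k * φ k v := by
    intro k
    refine Finite.injective_iff_bijective.1 fun v w h => hinj ?_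
    refine (k : MulAut P).injective ?_
    rw [hφ, hφ]
    exact congrArg η h
  let π : K →* Equiv.Perm F := MonoidHom.mk' (fun k => Equiv.ofBijective _ (hπ k))
    (fun k l => Equiv.ext fun v => hinj (by
      show η (a (k * l) * φ (k * l) v) = η (a k * φ k (a l * φ l v))
      rw [← hφ, ← hφ, ← hφ]
      rfl))
  obtain ⟨d, hd, hscal⟩ := exists_param hn2 hF π.range
    (fun h => by
      obtain ⟨k, hk⟩ := h.2
      exact ⟨a k, φ k, fun v => by rw [← hk]; rfl⟩)
    (fun x y hx hy => by
      have hne : ∀ z : F, z ≠ 0 → η z ≠ 1 := fun z hz h => hz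
        (e.symm.injective ((Additive.toMul.injective (Subtype.ext h)).trans (map_zero e.symm).symm))
      obtain ⟨k, hk⟩ := hT.trans (η x) (η y) (hne x hx) ((e.symm x).toMul).2 (hne y hy)
        ((e.symm y).toMul).2
      exact ⟨⟨π k, k, rfl⟩, hinj (by rw [hφ] at hk; exact hk)⟩)
  refine ⟨F, iF, iFF, hchar, η, n, d,
    ⟨fun v w => by simp [η], hinj, hmem, fun v => ((e.symm v).toMul).2, hF, hd,
      fun k => ⟨a k, φ k, hφ k⟩, fun x hx => ?_⟩⟩
  obtain ⟨⟨h, k, rfl⟩, hh⟩ := hscal x hx
  exact ⟨k, fun v => by rw [hφ]; exact congrArg η (hh v)⟩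

end CfsgLib.SuzukiTrans
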